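/-
Gross's bound on the 2-length: an element of a derived subgroup acting quadratically against a `q`-group lies in
the `q`-core of the linear group.
-/
import Cfsg.Agent.Core.HallHigman.DerivedLength

set_option autoImplicit false
set_option linter.style.haveILetI false
set_option linter.unusedSectionVars false
set_option maxSynthPendingDepth 4

namespace Cfsg.Agent.KnownA.GrossLength

open Module Cfsg Cfsg.Agent.Core
open scoped commutatorElement

universe u v

variable {q : ℕ} [hq : Fact q.Prime]

/-- A `q`-group fixes a non-zero vector in characteristic `q`. -/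
theorem exists_fixed_vector {P : Type*} [Group P] (hP : IsPGroup q P) {A : Type v} [AddCommGroup A]
    [Module (ZMod q) A] [Finite A] [Nontrivial A] (L : P →* Module.End (ZMod q) A) :
    ∃ v : A, v ≠ 0 ∧ ∀ x, L x v = v := by
  letI : MulAction P A :=
    { smul := fun x v => L x v
      one_smul := fun v => by show L 1 v = v; rw [map_one, Module.End.one_apply]
      mul_smul := fun x y v => by show L (x * y) v = L x (L y v); rw [map_mul, Module.End.mul_apply] }
  have hdvd : q ∣ Nat.card A := by
    rw [Module.natCard_eq_pow_finrank (K := ZMod q), Nat.card_zmod]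
    exact dvd_pow_self q Module.finrank_pos.ne'
  have h0 : (0 : A) ∈ MulAction.fixedPoints P A := fun x => map_zero (L x)
  obtain ⟨v, hv, hne⟩ := hP.exists_fixed_point_of_prime_dvd_card_of_fixed_point (α := A) hdvd h0
  exact ⟨v, fun h => hne h.symm, hv⟩

set_option maxHeartbeats 1000000 in
/-- The irreducible case: the element acts trivially. -/
theorem quadratic_irreducible {Γ : Type u} [Group Γ] [Finite Γ] [Group.IsSolvable Γ] (hq2 : q ≠ 2)
    {A : Type v} [AddCommGroup A] [Module (ZMod q) A] [Finite A] [Nontrivial A]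
    (L : Γ →* Module.End (ZMod q) A) (hinj : Function.Injective L)
    (hirr : ∀ U : Submodule (ZMod q) A, (∀ x, ∀ v ∈ U, L x v ∈ U) → U = ⊥ ∨ U = ⊤)
    (R0 : Subgroup Γ) (hR0 : IsPGroup q R0) {c : Γ} (hc : c ∈ ⁅R0, R0⁆)
    (hquad : ∀ a ∈ R0, (L c - 1) * (L a - 1) = 0) : c = 1 := by
  classical
  have hs : IsPSolvable q Γ := isPSolvable_of_isSolvable
  have hpc : pCore q Γ = ⊥ := by
    rw [eq_bot_iff]
    intro x hx
    obtain ⟨v, hv0, hv⟩ := exists_fixed_vector (isPGroup_pCore q Γ) (L.comp (pCore q Γ).subtype)
    let U : Submodule (ZMod q) A := ⨅ y : pCore q Γ, LinearMap.ker (L (y : Γ) - 1)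
    have hUmem : ∀ w, w ∈ U ↔ ∀ y : pCore q Γ, L (y : Γ) w = w := fun w => by
      simp [U, LinearMap.mem_ker, sub_eq_zero]
    have hUinv : ∀ z, ∀ w ∈ U, L z w ∈ U := fun z w hw => by
      rw [hUmem] at hw ⊢
      intro y
      have hy : z⁻¹ * (y : Γ) * z ∈ pCore q Γ := by
        simpa using (inferInstance : (pCore q Γ).Normal).conj_mem y y.2 z⁻¹
      rw [← Module.End.mul_apply, ← map_mul, show (y : Γ) * z = z * (z⁻¹ * (y : Γ) * z) by group, map_mul,
        Module.End.mul_apply]
      exact congrArg (L z) (hw ⟨_, hy⟩)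
    rcases hirr U hUinv with h | h
    · exact absurd ((Submodule.eq_bot_iff U).mp h v ((hUmem v).mpr fun y => hv y)) hv0
    · refine Subgroup.mem_bot.mpr (hinj (LinearMap.ext fun w => ?_))
      rw [map_one, Module.End.one_apply]
      exact (hUmem w).mp (h ▸ Submodule.mem_top) ⟨x, hx⟩
  -- the elements of the derived subgroup acting quadratically
  have hstep : ∀ h k a : Γ, L (h * k) * (L a - 1) - (L a - 1) =
      (L h - 1) * (L (k * a * k⁻¹) - 1) * L k + (L k - 1) * (L a - 1) := fun h k a => by
    have e : L (k * a * k⁻¹) * L k = L k * L a := by rw [← map_mul, ← map_mul, inv_mul_cancel_right]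
    calc L (h * k) * (L a - 1) - (L a - 1)
        = (L h - 1) * (L k * L a - L k) + (L k - 1) * (L a - 1) := by rw [map_mul]; noncomm_ring
      _ = (L h - 1) * (L (k * a * k⁻¹) * L k - L k) + (L k - 1) * (L a - 1) := by rw [e]
      _ = _ := by noncomm_ring
  let C1 : Subgroup Γ := Subgroup.closure {x | x ∈ ⁅R0, R0⁆ ∧ ∀ a ∈ R0, (L x - 1) * (L a - 1) = 0}
  have hC1le : C1 ≤ ⁅R0, R0⁆ := (Subgroup.closure_le _).mpr fun x hx => hx.1
  have hC1R : C1 ≤ R0 := hC1le.trans (HH.Quad.commutator_le_self R0)
  have hC1q : ∀ x ∈ C1, ∀ a ∈ R0, (L x - 1) * (L a - 1) = 0 := by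
    intro x hx
    induction hx using Subgroup.closure_induction with
    | mem x hx => exact hx.2
    | one => intro a _; rw [map_one, sub_self, zero_mul]
    | mul x z hx hz h1 h2 =>
      intro a ha
      rw [sub_mul, one_mul, hstep, h2 a ha,
        h1 _ (R0.mul_mem (R0.mul_mem (hC1R hz) ha) (R0.inv_mem (hC1R hz))), zero_mul, add_zero]
    | inv x hx h1 =>
      intro a ha
      have h := hstep x x⁻¹ a
      have hxa : x⁻¹ * a * x⁻¹⁻¹ ∈ R0 := R0.mul_mem (R0.mul_mem (R0.inv_mem (hC1R hx)) ha) (R0.inv_mem (R0.inv_mem (hC1R hx)))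
      rw [mul_inv_cancel, map_one, one_mul, sub_self, h1 _ hxa, zero_mul, zero_add] at h
      exact h.symm
  have hC1n : R0 ≤ Subgroup.normalizer (C1 : Set Γ) := by
    suffices hgen : ∀ b ∈ R0, ∀ x ∈ C1, b * x * b⁻¹ ∈ C1 from fun b hb => Subgroup.mem_normalizer_iff.mpr fun x =>
      ⟨fun h => hgen b hb x h, fun h => by
        have h' := hgen b⁻¹ (R0.inv_mem hb) _ h
        simpa [mul_assoc] using h'⟩
    intro b hb x hx
    refine Subgroup.subset_closure ⟨?_, fun a ha => ?_⟩
    · exact (Subgroup.mem_normalizer_iff.mp (HH.Quad.map_conj_commutator (Subgroup.le_normalizer hb)) x).mp (hC1le hx)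
    · have ha' : b⁻¹ * a * b ∈ R0 := R0.mul_mem (R0.mul_mem (R0.inv_mem hb) ha) hb
      have e : (L (b * x * b⁻¹) - 1) * (L a - 1) = L b * ((L x - 1) * (L (b⁻¹ * a * b) - 1)) * L b⁻¹ := by
        have e1 : L b * L b⁻¹ = 1 := (HH.Quad.rho_inv L b).1
        have e2 : L b⁻¹ * L b = 1 := (HH.Quad.rho_inv L b).2
        have e3 : ∀ X : Module.End (ZMod q) A, L b * (L b⁻¹ * X) = X := fun X => by rw [← mul_assoc, e1, one_mul]
        simp only [map_mul, mul_sub, sub_mul, mul_one, one_mul, mul_assoc, e1, e3]
      rw [e, hC1q x hx _ ha', mul_zero, zero_mul]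
  -- extend the scalars
  haveI : Module.Finite (ZMod q) A := Module.Finite.of_finite
  let K := AlgebraicClosure (ZMod q)
  haveI : CharP K q := charP_of_injective_algebraMap (algebraMap (ZMod q) K).injective q
  let b := Module.finBasis (ZMod q) A
  let φ : Module.End (ZMod q) A →+* Module.End K (Fin (Module.finrank (ZMod q) A) → K) :=
    ((Matrix.toLinAlgEquiv' (R := K)).toRingEquiv.toRingHom.comp
      ((algebraMap (ZMod q) K).mapMatrix.comp (LinearMap.toMatrixAlgEquiv b).toRingEquiv.toRingHom))
  have hφ : Function.Injective φ := by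
    intro A B hAB
    exact (LinearMap.toMatrixAlgEquiv b).injective (Matrix.map_injective (algebraMap (ZMod q) K).injective
      ((Matrix.toLinAlgEquiv' (R := K)).injective hAB))
  let ρ := φ.toMonoidHom.comp L
  have hρ : Function.Injective ρ := hφ.comp hinj
  set N := pPrimeCore q Γ with hN
  let T : ℕ → Subgroup Γ := fun i => if i = 0 then R0 else if i = 1 then C1 else ⊥
  have hA : R0 ≤ Subgroup.normalizer (N : Set Γ) := by
    rw [Subgroup.normalizer_eq_top]; exact le_top
  have hcop : (Nat.card R0).Coprime (Nat.card N) := by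
    obtain ⟨n, hn⟩ := IsPGroup.iff_card.mp hR0
    rw [hn]; exact (card_pPrimeCore_coprime q Γ).symm.pow_left n
  have hsol : Group.IsSolvable R0 := inferInstance
  have hcT : c ∈ C1 := Subgroup.subset_closure ⟨hc, hquad⟩
  have hcent : c ∈ Subgroup.centralizer (N : Set Γ) := by
    have htop : (Subgroup.centralizer ({c} : Set Γ)).subgroupOf N = ⊤ := by
      refine eq_top_of_forall_exists_sylow_le fun r hr => ?_
      haveI := Fact.mk hr
      obtain ⟨P, hPN, hPq, hPi, hAP⟩ := exists_invariant_sylow hA (Or.inl hsol) hcop r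
      have hPi' : ¬ r ∣ (P.subgroupOf N).index := hPi
      refine ⟨(hPq.comap_subtype (K := N)).toSylow hPi', fun z hz => ?_⟩
      refine Subgroup.mem_subgroupOf.mpr (Subgroup.mem_centralizer_singleton_iff.mpr ?_)
      by_cases hpq : q = r
      · subst hpq
        obtain ⟨j, hj⟩ := IsPGroup.iff_card.mp hPq
        rcases Nat.eq_zero_or_pos j with rfl | hj0
        · rw [pow_zero, Subgroup.card_eq_one] at hj
          have hz' : (z : Γ) ∈ P := hz
          rw [hj, Subgroup.mem_bot] at hz'
          rw [hz', one_mul, mul_one]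
        · exact absurd ((hj ▸ dvd_pow_self q hj0.ne').trans (Subgroup.card_dvd_of_le hPN))
            (not_dvd_card_pPrimeCore q Γ)
      · refine (hρ (HH.Quad.claim hq2 hpq 1 _ ρ P T le_rfl ?_ c (by simpa [T] using hcT) (z : Γ) hz)).symm
        exact
          { hQ := hPq
            hT := fun i => by
              rcases i with _ | _ | i
              · simpa [T] using hC1le
              · simp [T]
              · simp [T]
            hT0 := hR0
            hTQ := hAP
            hA := by simpa [T] using hC1n
            hcomm := fun x hx y hy => by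
              simp only [T, if_neg one_ne_zero, if_pos] at hx hy
              have h1 := congrArg φ (hC1q x hx y (hC1R hy))
              have h2 := congrArg φ (hC1q y hy x (hC1R hx))
              simp only [map_zero, map_mul, map_sub, map_one] at h1 h2
              rw [map_mul, map_mul]
              have e : ∀ X Y : Module.End K (Fin (Module.finrank (ZMod q) A) → K),
                  (X - 1) * (Y - 1) = X * Y - (X + Y - 1) := fun X Y => by noncomm_ring
              rw [e, sub_eq_zero] at h1 h2
              show φ (L x) * φ (L y) = φ (L y) * φ (L x)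
              rw [h1, h2, add_comm]
            hquad := fun x hx y hy => by
              simp only [T, if_neg one_ne_zero, if_pos] at hx hy
              have h := congrArg φ (hC1q x hx y (hC1R hy))
              rwa [map_zero, map_mul, map_sub, map_sub, map_one] at h
            hkill := fun t ht => by
              have h0 : t 0 ∈ R0 := by simpa [T] using ht 0
              have h1 : t 1 ∈ C1 := by simpa [T] using ht 1
              have h := congrArg φ (hC1q _ h1 _ h0)
              rw [map_zero, map_mul, map_sub, map_sub, map_one] at h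
              simpa [HH.Quad.dprod, ρ] using h }
    refine Subgroup.mem_centralizer_iff.mpr fun z hz => ?_
    exact Subgroup.mem_centralizer_singleton_iff.mp ((Subgroup.subgroupOf_eq_top.mp htop) hz)
  have h1 : piCore ({q}ᶜ)ᶜ Γ = ⊥ := by rw [compl_compl, ← pCore_eq_piCore, hpc]
  have h2 := centralizer_piCore_le (isPiSeparable_compl (isPiSeparable_of_isPSolvable hs)) h1
  rw [← pPrimeCore_eq_piCore] at h2
  obtain ⟨k, hk⟩ := hR0 ⟨c, hC1R hcT⟩
  exact orderOf_eq_one_iff.mp (Nat.eq_one_of_dvd_coprimes ((card_pPrimeCore_coprime q Γ).symm.pow_left k)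
    (orderOf_dvd_of_pow_eq_one (congrArg Subtype.val hk)) (Subgroup.orderOf_dvd_natCard _ (h2 hcent)))

set_option maxHeartbeats 1000000 in
/-- An element of the derived subgroup of a `q`-group `R0` acting quadratically against `R0` lies in a normal
subgroup acting as a `q`-group. -/
theorem exists_normal_qGroup {Γ : Type u} [Group Γ] [Finite Γ] [Group.IsSolvable Γ] (hq2 : q ≠ 2)
    (R0 : Subgroup Γ) (hR0 : IsPGroup q R0) {c : Γ} (hc : c ∈ ⁅R0, R0⁆) :
    ∀ (m : ℕ) {A : Type v} [AddCommGroup A] [Module (ZMod q) A] [Finite A], Nat.card A ≤ m →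
      ∀ L : Γ →* Module.End (ZMod q) A, (∀ a ∈ R0, (L c - 1) * (L a - 1) = 0) →
        ∃ N : Subgroup Γ, N.Normal ∧ c ∈ N ∧ ∀ x ∈ N, ∃ i, L (x ^ q ^ i) = 1 := by
  intro m
  induction m with
  | zero =>
    intro A _ _ _ h
    exact absurd h (not_le.mpr Nat.card_pos)
  | succ m ih =>
    intro A _ _ _ hm L hquad
    classical
    rcases subsingleton_or_nontrivial A with hs | hnt
    · exact ⟨⊤, inferInstance, Subgroup.mem_top c, fun x _ => ⟨0, LinearMap.ext fun v => Subsingleton.elim _ _⟩⟩
    by_cases hirr : ∀ U : Submodule (ZMod q) A, (∀ x, ∀ v ∈ U, L x v ∈ U) → U = ⊥ ∨ U = ⊤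
    · refine ⟨L.toHomUnits.ker, inferInstance, ?_, fun x hx => ⟨0, ?_⟩⟩
      · haveI : Finite L.toHomUnits.range :=
          Finite.of_surjective _ L.toHomUnits.rangeRestrict_surjective
        haveI : Group.IsSolvable L.toHomUnits.range :=
          Group.isSolvable_of_surjective L.toHomUnits.rangeRestrict_surjective
        have hcm : L.toHomUnits.rangeRestrict c ∈
            ⁅R0.map L.toHomUnits.rangeRestrict, R0.map L.toHomUnits.rangeRestrict⁆ := by
          rw [← Subgroup.map_commutator]; exact Subgroup.mem_map_of_mem _ hc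
        have hirr' : ∀ U : Submodule (ZMod q) A,
            (∀ x : L.toHomUnits.range, ∀ v ∈ U, ((x : (Module.End (ZMod q) A)ˣ) : Module.End (ZMod q) A) v ∈ U) →
              U = ⊥ ∨ U = ⊤ := fun U hU => hirr U fun x v hv => hU (L.toHomUnits.rangeRestrict x) v hv
        have h := quadratic_irreducible hq2
          ((Units.coeHom (Module.End (ZMod q) A)).comp L.toHomUnits.range.subtype)
          (fun a b hab => Subtype.ext (Units.ext hab)) hirr' (R0.map L.toHomUnits.rangeRestrict) (hR0.map _) hcm
          (by rintro _ ⟨a, ha, rfl⟩; exact hquad a ha)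
        exact MonoidHom.mem_ker.mpr (congrArg Subtype.val h)
      · rw [pow_zero, pow_one]
        exact congrArg Units.val (MonoidHom.mem_ker.mp hx)
    · push Not at hirr
      obtain ⟨U, hU, hUb, hUt⟩ := hirr
      have hcard1 : Nat.card U < Nat.card A := by
        refine lt_of_le_of_ne (Nat.card_le_card_of_injective _ U.injective_subtype) fun h => hUt ?_
        refine SetLike.coe_injective ?_
        rw [Submodule.top_coe]
        exact Set.eq_of_subset_of_ncard_le (Set.subset_univ _)
          (by rw [Set.ncard_univ, ← Nat.card_coe_set_eq]; exact h.ge) (Set.toFinite _)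
      haveI : Finite (A ⧸ U) := Finite.of_surjective _ U.mkQ_surjective
      have hcard2 : Nat.card (A ⧸ U) < Nat.card A := by
        rw [Submodule.card_eq_card_quotient_mul_card U]
        haveI : Nontrivial U := Submodule.nontrivial_iff_ne_bot.mpr hUb
        exact lt_mul_of_one_lt_left Nat.card_pos Finite.one_lt_card
      let L1 : Γ →* Module.End (ZMod q) U :=
        { toFun := fun x => (L x).restrict (hU x)
          map_one' := LinearMap.ext fun v => Subtype.ext (by
            simp [LinearMap.coe_restrict_apply])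
          map_mul' := fun x y => LinearMap.ext fun v => Subtype.ext (by
            simp [LinearMap.coe_restrict_apply, Module.End.mul_apply]) }
      let L2 : Γ →* Module.End (ZMod q) (A ⧸ U) :=
        { toFun := fun x => U.mapQ U (L x) (fun v hv => hU x v hv)
          map_one' := Submodule.linearMap_qext _ (LinearMap.ext fun v => by simp)
          map_mul' := fun x y => Submodule.linearMap_qext _ (LinearMap.ext fun v => by
            simp [Module.End.mul_apply]) }
      obtain ⟨N1, hN1, hc1, h1⟩ := ih (by omega) L1 (fun a ha => LinearMap.ext fun v => Subtype.ext (by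
        have h := LinearMap.congr_fun (hquad a ha) (v : A)
        simpa [Module.End.mul_apply, LinearMap.coe_restrict_apply, L1] using h))
      obtain ⟨N2, hN2, hc2, h2⟩ := ih (by omega) L2 (fun a ha => Submodule.linearMap_qext _ (LinearMap.ext fun v => by
        have h := congrArg U.mkQ (LinearMap.congr_fun (hquad a ha) v)
        simpa [Module.End.mul_apply, L2] using h))
      haveI := hN1
      haveI := hN2
      refine ⟨N1 ⊓ N2, inferInstance, ⟨hc1, hc2⟩, fun x hx => ?_⟩
      obtain ⟨i, hi⟩ := h1 x hx.1
      obtain ⟨j, hj⟩ := h2 x hx.2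
      refine ⟨i + j + 1, ?_⟩
      set z := x ^ q ^ (i + j) with hz
      have hz1 : L1 z = 1 := by rw [hz, pow_add, pow_mul, map_pow, hi, one_pow]
      have hz2 : L2 z = 1 := by rw [hz, add_comm, pow_add, pow_mul, map_pow, hj, one_pow]
      have hsq : (L z - 1) ^ 2 = 0 := by
        refine LinearMap.ext fun v => ?_
        have hmem : (L z - 1) v ∈ U := by
          rw [LinearMap.sub_apply, Module.End.one_apply, ← Submodule.Quotient.eq]
          exact LinearMap.congr_fun hz2 (Submodule.Quotient.mk v)
        have h' : L z ((L z - 1) v) = (L z - 1) v := congrArg Subtype.val (LinearMap.congr_fun hz1 ⟨_, hmem⟩)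
        rw [pow_two, Module.End.mul_apply]
        set w := (L z - 1) v
        rw [LinearMap.sub_apply, Module.End.one_apply, h', sub_self, LinearMap.zero_apply]
      have h := HH.sub_one_pow_char_pow (K := ZMod q) (p := q) (L z) 1
      rw [pow_one, pow_eq_zero_of_le hq.out.two_le hsq, eq_comm, sub_eq_zero] at h
      rw [pow_succ, pow_mul, ← hz, map_pow, h]

end Cfsg.Agent.KnownA.GrossLength
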