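/-
Gross's bound on the 2-length: the component of an exceptional 2-element in characteristic two.
-/
import Cfsg.Agent.KnownA.GrossLength.Factor

set_option autoImplicit false
set_option linter.style.haveILetI false
set_option linter.unusedSectionVars false
set_option maxSynthPendingDepth 4

namespace Cfsg.Agent.KnownA.GrossLength

open Module Cfsg.Agent.Core.HH
open scoped commutatorElement

universe u v

variable {K : Type u} [Field K] [IsAlgClosed K] {V : Type v} [AddCommGroup V] [Module K V]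
  [FiniteDimensional K V] {Q : Type*} [Group Q] [Finite Q]

set_option maxHeartbeats 2000000 in
/-- The component. -/
theorem exists_component2 [CharP K 2] {q : ℕ} [Fact q.Prime] (hQ : IsPGroup q Q) (hqK : (q : K) ≠ 0)
    (ρ : Q →* Module.End K V) (hnt : ∃ x, ρ x ≠ 1)
    (X : Module.End K V) (σ : MulAut Q) {n : ℕ} (hpq : 2 ≠ q) (hn : 0 < n)
    (hX : X ^ (2 ^ n) = 1) (hXρ : ∀ x, X * ρ x = ρ (σ x) * X) (hσ : σ ^ (2 ^ n) = 1)
    (hfix : ∀ a b : Q, (σ ^ (2 ^ (n - 1))) ⁅a, b⁆ = ⁅a, b⁆)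
    (hgen : Subgroup.closure (Set.range fun x => (σ ^ (2 ^ (n - 1))) x * x⁻¹) = ⊤)
    (hk : (X - 1) ^ (2 ^ n - 1) = 0) :
    ∃ (W : Submodule K V) (a N e : ℕ), a < n ∧ W ≠ ⊥ ∧ (∀ w ∈ W, (X ^ (2 ^ a)) w ∈ W) ∧
      (∀ x, ∀ w ∈ W, ρ x w ∈ W) ∧ (∀ x y : Q, ∃ c : K, ∀ w ∈ W, ρ ⁅x, y⁆ w = c • w) ∧
      (∀ r : Q, (∀ x, ∀ w ∈ W, ρ r (ρ x w) = ρ x (ρ r w)) → ∃ c : K, ∀ w ∈ W, ρ r w = c • w) ∧
      2 ≤ N ∧ N + 1 = 2 ^ (n - a) ∧ N ^ 2 = q ^ e ∧
      Nat.card {x : Q // ∃ c : K, ∀ w ∈ W, ρ x w = c • w} * N ^ 2 = Nat.card Q ∧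
      ∀ Y : Module.End K V, (∀ x, Y * ρ x = ρ x * Y) → (∀ w ∈ W, Y w ∈ W) ∧
        ∀ w ∈ W, Y ((X ^ (2 ^ a)) w) = (X ^ (2 ^ a)) (Y w) := by
  classical
  haveI hp : Fact (Nat.Prime 2) := ⟨Nat.prime_two⟩
  have hinv : ∀ x v, ρ x (ρ x⁻¹ v) = v ∧ ρ x⁻¹ (ρ x v) = v := fun x v => by
    rw [← Module.End.mul_apply, ← Module.End.mul_apply, ← map_mul, ← map_mul, mul_inv_cancel, inv_mul_cancel,
      map_one]
    exact ⟨rfl, rfl⟩
  have hmulv : ∀ x y v, ρ (x * y) v = ρ x (ρ y v) := fun x y v => by rw [map_mul, Module.End.mul_apply]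
  have hXpow : ∀ (j : ℕ) x v, (X ^ j) (ρ x v) = ρ ((σ ^ j) x) ((X ^ j) v) := by
    intro j
    induction j with
    | zero => simp
    | succ j ih =>
      intro x v
      rw [pow_succ', Module.End.mul_apply, ih, ← Module.End.mul_apply, hXρ, Module.End.mul_apply, pow_succ',
        MulAut.mul_apply]
      rfl
  have hXinj : ∀ (j : ℕ) v, (X ^ j) v = 0 → v = 0 := by
    have h1 : ∀ v, X v = 0 → v = 0 := fun v hv => by
      have : (X ^ (2 ^ n - 1) * X) v = 0 := by rw [Module.End.mul_apply, hv, map_zero]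
      rwa [← pow_succ, Nat.sub_add_cancel (Nat.one_le_pow _ _ hp.out.pos), hX, Module.End.one_apply] at this
    intro j
    induction j with
    | zero => intro v hv; simpa using hv
    | succ j ih => intro v hv; rw [pow_succ', Module.End.mul_apply] at hv; exact ih v (h1 _ hv)
  -- the averaging operator
  haveI : Fintype Q := Fintype.ofFinite Q
  let e0 : Module.End K V := ∑ x, ρ x
  have he0 : ∀ x v, e0 (ρ x v) = e0 v ∧ ρ x (e0 v) = e0 v := fun x v => by
    simp only [e0, LinearMap.sum_apply, map_sum, ← hmulv]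
    exact ⟨Equiv.sum_comp (Equiv.mulRight x) fun y => ρ y v, Equiv.sum_comp (Equiv.mulLeft x) fun y => ρ y v⟩
  have hQK : (Fintype.card Q : K) ≠ 0 := by
    obtain ⟨k, hk⟩ := IsPGroup.iff_card.mp hQ
    rw [Nat.card_eq_fintype_card] at hk
    rw [hk, Nat.cast_pow]
    exact pow_ne_zero _ hqK
  have hnofix : ∀ v, e0 v = 0 → (∀ x, ρ x v = v) → v = 0 := fun v hv hfix' => by
    have h : (Fintype.card Q : K) • v = 0 := by
      rw [← hv]
      simp [e0, LinearMap.sum_apply, hfix', Finset.sum_const, Nat.cast_smul_eq_nsmul]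
    exact (smul_eq_zero.mp h).resolve_left hQK
  -- a minimal invariant subspace without fixed points
  let Inv : Submodule K V → Prop := fun U => U ≠ ⊥ ∧ U ≤ LinearMap.ker e0 ∧ ∀ x, ∀ v ∈ U, ρ x v ∈ U
  have hker : Inv (LinearMap.ker e0) := by
    refine ⟨fun hb => ?_, le_rfl, fun x v hv => ?_⟩
    · obtain ⟨x, hx⟩ := hnt
      refine hx (LinearMap.ext fun v => ?_)
      have h1 : (Fintype.card Q : K) • v - e0 v = 0 := by
        rw [← Submodule.mem_bot K, ← hb, LinearMap.mem_ker, map_sub, map_smul, sub_eq_zero]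
        have h2 : e0 (e0 v) = ∑ y : Q, e0 v := by
          conv_lhs => rw [show e0 (e0 v) = ∑ y, ρ y (e0 v) from LinearMap.sum_apply _ _ _]
          exact Finset.sum_congr rfl fun y _ => (he0 y v).2
        rw [h2, Finset.sum_const, Finset.card_univ, Nat.cast_smul_eq_nsmul]
      rw [sub_eq_zero] at h1
      have h3 : (Fintype.card Q : K) • ρ x v = (Fintype.card Q : K) • v := by
        rw [← map_smul, h1, (he0 x v).2]
      exact (smul_right_injective V hQK h3 : _)
    · rw [LinearMap.mem_ker] at hv ⊢; rw [(he0 x v).1, hv]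
  have hex : ∃ d, ∃ U, Inv U ∧ finrank K U = d := ⟨_, _, hker, rfl⟩
  obtain ⟨W0, ⟨hW0ne, hW0e, hW0inv⟩, hW0dim⟩ := Nat.find_spec hex
  have hmin : ∀ U : Submodule K V, U ≤ W0 → U ≠ ⊥ → (∀ x, ∀ v ∈ U, ρ x v ∈ U) → U = W0 := fun U hU hne hinvU =>
    Submodule.eq_of_le_of_finrank_le hU (hW0dim ▸ Nat.find_min' hex ⟨U, ⟨hne, hU.trans hW0e, hinvU⟩, rfl⟩)
  obtain ⟨w0, hw0, hw0ne⟩ := Submodule.exists_mem_ne_zero_of_ne_bot hW0ne
  haveI : Nontrivial W0 := Submodule.nontrivial_iff_ne_bot.mpr hW0ne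
  have hschur : ∀ r, (∀ x, ∀ v ∈ W0, ρ r (ρ x v) = ρ x (ρ r v)) → ∃ c : K, ∀ v ∈ W0, ρ r v = c • v := by
    intro r hr
    obtain ⟨c, hc⟩ := Module.End.exists_eigenvalue ((ρ r).restrict (hW0inv r))
    obtain ⟨v0, hv0⟩ := hc.exists_hasEigenvector
    refine ⟨c, fun v hv => ?_⟩
    let U : Submodule K V := W0 ⊓ LinearMap.ker (ρ r - c • (1 : Module.End K V))
    have hU : ∀ v, v ∈ U ↔ v ∈ W0 ∧ ρ r v = c • v := fun v => by
      simp [U, sub_eq_zero]
    have hUeq : U = W0 := by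
      refine hmin U inf_le_left (fun hb => hv0.2 (Subtype.ext ?_)) fun x v hv => ?_
      · refine (Submodule.mem_bot K).mp (hb ▸ (hU (v0 : V)).mpr ⟨v0.2, ?_⟩)
        have := congrArg Subtype.val hv0.apply_eq_smul
        simpa using this
      · rw [hU] at hv ⊢
        exact ⟨hW0inv x v hv.1, by rw [hr x v hv.1, hv.2, map_smul]⟩
    exact ((hU v).mp (hUeq.symm ▸ hv)).2
  -- `y` and the centre
  set y : MulAut Q := σ ^ (2 ^ (n - 1)) with hy
  have hcentral : ∀ a b x : Q, ⁅a, b⁆ * x = x * ⁅a, b⁆ := by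
    intro a b
    set c := ⁅a, b⁆
    have hyc : ∀ g : Q, y (g * c * g⁻¹) = g * c * g⁻¹ := fun g => by
      rw [show g * c * g⁻¹ = ⁅g, c⁆ * c by simp [commutatorElement_def], map_mul, hfix, hfix]
    have hcle : Subgroup.closure (Set.range fun x => y x * x⁻¹) ≤ Subgroup.centralizer {c} := by
      rw [Subgroup.closure_le]
      rintro _ ⟨x, rfl⟩
      refine Subgroup.mem_centralizer_singleton_iff.mpr ?_
      have h := hyc x⁻¹
      rw [map_mul, map_mul, map_inv, inv_inv, hfix a b] at h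
      change (y x)⁻¹ * c * y x = x⁻¹ * c * x at h
      show y x * x⁻¹ * c = c * (y x * x⁻¹)
      calc y x * x⁻¹ * c = y x * (x⁻¹ * c * x) * x⁻¹ := by group
        _ = y x * ((y x)⁻¹ * c * y x) * x⁻¹ := by rw [← h]
        _ = c * (y x * x⁻¹) := by group
    intro x
    exact (Subgroup.mem_centralizer_singleton_iff.mp ((hgen ▸ hcle) (Subgroup.mem_top x))).symm
  -- the scalar elements and the component
  let R : Subgroup Q :=
    { carrier := {r | ∃ c : K, ∀ v ∈ W0, ρ r v = c • v}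
      one_mem' := ⟨1, fun v _ => by simp⟩
      mul_mem' := by
        rintro a b ⟨c, hc⟩ ⟨d, hd⟩
        exact ⟨c * d, fun v hv => by rw [hmulv, hd v hv, map_smul, hc v hv, smul_smul, mul_comm]⟩
      inv_mem' := by
        rintro a ⟨c, hc⟩
        have hc0 : c ≠ 0 := fun h => hw0ne (by rw [← (hinv a w0).2, hc w0 hw0, h, zero_smul, map_zero])
        refine ⟨c⁻¹, fun v hv => ?_⟩
        conv_lhs => rw [← one_smul K v, ← inv_mul_cancel₀ hc0, mul_smul, map_smul, ← hc v hv, (hinv a v).2] }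
  have huniq : ∀ (r : Q) (c d : K), (∀ v ∈ W0, ρ r v = c • v) → (∀ v ∈ W0, ρ r v = d • v) → c = d :=
    fun r c d hc hd => smul_left_injective K hw0ne ((hc w0 hw0).symm.trans (hd w0 hw0))
  have hRn : ∀ r (c : K), (∀ v ∈ W0, ρ r v = c • v) → ∀ g, ∀ v ∈ W0, ρ (g * r * g⁻¹) v = c • v := by
    intro r c hc g v hv
    rw [hmulv, hmulv, hc _ (hW0inv g⁻¹ v hv), map_smul, (hinv g v).1]
  let W : Submodule K V :=
    { carrier := {v | ∀ r, ∀ c : K, (∀ v' ∈ W0, ρ r v' = c • v') → ρ r v = c • v}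
      zero_mem' := fun r c _ => by simp
      add_mem' := fun ha hb r c h => by rw [map_add, ha r c h, hb r c h, smul_add]
      smul_mem' := fun k v hv r c h => by rw [map_smul, hv r c h, smul_comm] }
  have hW0W : W0 ≤ W := fun v hv r c h => h v hv
  have hWinv : ∀ x, ∀ v ∈ W, ρ x v ∈ W := by
    intro x v hv r c hc
    have h1 := hv (x⁻¹ * r * x) c (fun v' hv' => by
      have := hRn r c hc x⁻¹ v' hv'
      rwa [inv_inv] at this)
    rw [hmulv, hmulv] at h1
    have h2 := congrArg (ρ x) h1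
    rwa [(hinv x _).1, map_smul] at h2
  have hcommR : ∀ a b, ∃ c : K, ∀ v ∈ W0, ρ ⁅a, b⁆ v = c • v := fun a b =>
    hschur _ fun x v _ => by rw [← hmulv, ← hmulv, hcentral]
  have hWne : W ≠ ⊥ := fun h => hw0ne ((Submodule.mem_bot K).mp (h ▸ hW0W hw0))
  -- translates
  let S : ℕ → Prop := fun d => ∀ v ∈ W, (X ^ d) v ∈ W
  have hSadd : ∀ a b, S a → S b → S (a + b) := fun a b ha hb v hv => by
    rw [pow_add, Module.End.mul_apply]; exact ha _ (hb v hv)
  have hSsurj : ∀ a, S a → ∀ v ∈ W, ∃ v' ∈ W, (X ^ a) v' = v := by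
    intro a ha v hv
    have hinj : Function.Injective ((X ^ a).restrict ha) := (injective_iff_map_eq_zero _).mpr fun w hw =>
      Subtype.ext (hXinj a w (congrArg Subtype.val hw))
    obtain ⟨w, hw⟩ := LinearMap.injective_iff_surjective.mp hinj ⟨v, hv⟩
    exact ⟨w, w.2, congrArg Subtype.val hw⟩
  have hSsub : ∀ a b, S a → S (a + b) → S b := fun a b ha hab v hv => by
    obtain ⟨w, hw, hwe⟩ := hSsurj a ha _ (hab v hv)
    rw [pow_add, Module.End.mul_apply] at hwe
    have : w = (X ^ b) v := sub_eq_zero.mp (hXinj a _ (by rw [map_sub, hwe, sub_self]))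
    exact this ▸ hw
  obtain ⟨d0, hd0pos, hSd0, hd0dvd, hd0mul⟩ := exists_dvd_of_closed hSadd hSsub (P := 2 ^ n)
    (pow_pos hp.out.pos n) (fun v hv => by rw [hX]; exact hv)
  obtain ⟨a, ha, rfl⟩ := (Nat.dvd_prime_pow hp.out).mp (hd0dvd _ (fun v hv => by rw [hX]; exact hv))
  have hσi : ∀ (j : ℕ) (x : Q), ∀ v, ρ ((σ ^ j) x) ((X ^ j) v) = (X ^ j) (ρ x v) := fun j x v => (hXpow j x v).symm
  have hsep : ∀ d, ¬ S d → ∃ z : Q, ∃ c c' : K, c ≠ c' ∧ (∀ w ∈ W, ρ z w = c • w) ∧
      ∀ w ∈ W, ρ z ((X ^ d) w) = c' • (X ^ d) w := by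
    intro d hd
    have himg : ∀ r (c : K), (∀ v ∈ W0, ρ r v = c • v) → ∀ w ∈ W, ρ ((σ ^ d) r) ((X ^ d) w) = c • (X ^ d) w :=
      fun r c hc w hw => by rw [hσi, hw r c hc, map_smul]
    by_cases h1 : ∀ r, r ∈ R → (σ ^ d) r ∈ R
    · by_cases h2 : ∀ r (c c' : K), (∀ v ∈ W0, ρ r v = c • v) → (∀ v ∈ W0, ρ ((σ ^ d) r) v = c' • v) → c = c'
      · refine absurd (fun v hv s c hs => ?_) hd
        have hmap : R.map (σ ^ d).toMonoidHom = R := by
          refine Subgroup.eq_of_le_of_card_ge ?_ (Nat.card_congr ((σ ^ d).subgroupMap R).toEquiv).le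
          rintro _ ⟨r, hr, rfl⟩
          exact h1 r hr
        obtain ⟨r, ⟨cr, hcr⟩, hre⟩ : s ∈ R.map (σ ^ d).toMonoidHom := by rw [hmap]; exact ⟨c, hs⟩
        have hre' : (σ ^ d) r = s := hre
        rw [← h2 r cr c hcr (hre'.symm ▸ hs), ← hre']
        exact himg r cr hcr v hv
      · simp only [not_forall] at h2
        obtain ⟨r, c, c', hc, hc', hne⟩ := h2
        exact ⟨(σ ^ d) r, c', c, Ne.symm hne, fun w hw => hw _ _ hc', himg r c hc⟩
    · simp only [not_forall] at h1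
      obtain ⟨r, ⟨cr, hcr⟩, hr'⟩ := h1
      obtain ⟨x, hx⟩ : ∃ x, ∃ v ∈ W0, ρ ((σ ^ d) r) (ρ x v) ≠ ρ x (ρ ((σ ^ d) r) v) := by
        by_contra h
        simp only [not_exists, not_and, not_not] at h
        exact hr' (hschur _ h)
      obtain ⟨c, hc⟩ := hcommR ((σ ^ d) r) x
      obtain ⟨x', hx'⟩ : ∃ x', (σ ^ d) x' = x := (σ ^ d).surjective x
      refine ⟨⁅(σ ^ d) r, x⁆, c, 1, fun hc1 => ?_, fun w hw => hw _ _ hc, fun w hw => ?_⟩
      · obtain ⟨v, hv, hne⟩ := hx
        refine hne ?_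
        have h := hc (ρ x (ρ ((σ ^ d) r) v)) (hW0inv _ _ (hW0inv _ _ hv))
        rw [hc1, one_smul, ← hmulv, ← hmulv] at h
        rw [← hmulv, ← hmulv]
        rw [show ⁅(σ ^ d) r, x⁆ * x * (σ ^ d) r = (σ ^ d) r * x by rw [commutatorElement_def]; group] at h
        exact h.trans (hmulv _ _ _).symm
      · rw [one_smul, ← hx', show ⁅(σ ^ d) r, (σ ^ d) x'⁆ = (σ ^ d) ⁅r, x'⁆ from
          (map_commutatorElement (σ ^ d).toMonoidHom r x').symm]
        obtain ⟨c'', hc''⟩ := hcommR r x'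
        rw [himg _ _ hc'' w hw]
        have : c'' = 1 := huniq ⁅r, x'⁆ c'' 1 hc'' fun v hv => by
          have h1 := hcr _ (hW0inv x' _ (hW0inv r⁻¹ _ (hW0inv x'⁻¹ v hv)))
          rw [commutatorElement_def, hmulv, hmulv, hmulv, h1, ← map_smul, ← hcr _ (hW0inv _ _ (hW0inv _ _ hv)),
            (hinv r _).1, (hinv x' v).1, one_smul]
        rw [this, one_smul]
  have hnotS : ∀ i, i < 2 ^ a → 0 < i → ¬ S i := fun i hi h0 hS =>
    absurd (Nat.le_of_dvd h0 (hd0dvd i hS)) (by omega)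
  have hWcomm : ∀ a b : Q, ∃ c : K, ∀ w ∈ W, ρ ⁅a, b⁆ w = c • w := fun a b => by
    obtain ⟨c, hc⟩ := hcommR a b
    exact ⟨c, fun w hw => hw _ _ hc⟩
  have hind : ∀ w ∈ W, w ≠ 0 → ∀ c : ℕ → K, ∑ i ∈ Finset.range (2 ^ a), c i • (X ^ i) w = 0 →
      ∀ i, i < 2 ^ a → c i = 0 := by
    intro w hw hwne c hsum
    have hkey : ∀ (s : Finset ℕ), (∀ i ∈ s, i < 2 ^ a) → ∀ f : ℕ → V, (∀ i ∈ s, f i ∈ W) →
        ∑ i ∈ s, (X ^ i) (f i) = 0 → ∀ i ∈ s, f i = 0 := by
      intro s
      induction s using Finset.strongInduction with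
      | _ s ih =>
        intro hs f hf hsum i hi
        by_cases hone : ∀ k ∈ s, k = i
        · rw [Finset.sum_eq_single_of_mem i hi (fun k hk hne' => absurd (hone k hk) hne')] at hsum
          exact hXinj i _ hsum
        simp only [not_forall] at hone
        obtain ⟨j, hj, hji⟩ := hone
        have hscal : ∃ (z : Q) (ci cj : K), ci ≠ cj ∧ (∀ v ∈ W, ρ z ((X ^ i) v) = ci • (X ^ i) v) ∧
            (∀ v ∈ W, ρ z ((X ^ j) v) = cj • (X ^ j) v) := by
          have hip := hs i hi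
          have hjp := hs j hj
          rcases lt_or_gt_of_ne hji with hlt | hlt
          · obtain ⟨z, c1, c2, hne', h1, h2⟩ := hsep (i - j) (hnotS _ (by omega) (by omega))
            refine ⟨(σ ^ j) z, c2, c1, Ne.symm hne', fun v hv => ?_, fun v hv => by rw [hσi, h1 v hv, map_smul]⟩
            rw [show i = j + (i - j) by omega, pow_add, Module.End.mul_apply, hσi, h2 v hv, map_smul]
          · obtain ⟨z, c1, c2, hne', h1, h2⟩ := hsep (j - i) (hnotS _ (by omega) (by omega))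
            refine ⟨(σ ^ i) z, c1, c2, hne', fun v hv => by rw [hσi, h1 v hv, map_smul], fun v hv => ?_⟩
            rw [show j = i + (j - i) by omega, pow_add, Module.End.mul_apply, hσi, h2 v hv, map_smul]
        obtain ⟨z, ci, cj, hne', hzi, hzj⟩ := hscal
        let g : ℕ → V := fun k => ρ (((σ ^ k)⁻¹ : MulAut Q) z) (f k) - cj • f k
        have hg : ∀ k, (X ^ k) (g k) = ρ z ((X ^ k) (f k)) - cj • (X ^ k) (f k) := fun k => by
          rw [map_sub, map_smul, hXpow]
          congr 2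
          exact congrArg ρ ((σ ^ k).apply_symm_apply z) |>.trans rfl
        have hgj : (X ^ j) (g j) = 0 := by rw [hg, hzj _ (hf j hj), sub_self]
        have hsum' : ∑ k ∈ s.erase j, (X ^ k) (g k) = 0 := by
          rw [Finset.sum_erase s hgj]
          simp only [hg]
          rw [Finset.sum_sub_distrib, ← map_sum, ← Finset.smul_sum, hsum, map_zero, smul_zero, sub_zero]
        have h := ih _ (Finset.erase_ssubset hj) (fun k hk => hs k (Finset.mem_of_mem_erase hk)) g
          (fun k hk => W.sub_mem (hWinv _ _ (hf k (Finset.mem_of_mem_erase hk))) (W.smul_mem _ (hf k (Finset.mem_of_mem_erase hk))))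
          hsum' i (Finset.mem_erase.mpr ⟨Ne.symm hji, hi⟩)
        have h2 := congrArg (X ^ i) h
        rw [map_zero, hg, hzi _ (hf i hi), ← sub_smul, smul_eq_zero] at h2
        exact hXinj i _ (h2.resolve_left (sub_ne_zero.mpr hne'))
    intro i hi
    have := hkey (Finset.range (2 ^ a)) (fun k hk => Finset.mem_range.mp hk) (fun k => c k • w)
      (fun k _ => W.smul_mem _ hw) (by simpa [map_smul] using hsum) i (Finset.mem_range.mpr hi)
    exact (smul_eq_zero.mp this).resolve_right hwne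
  have hscalW : ∀ r : Q, (∀ x, ∀ w ∈ W, ρ r (ρ x w) = ρ x (ρ r w)) → ∃ c : K, ∀ w ∈ W, ρ r w = c • w := fun r hr => by
    obtain ⟨c, hc⟩ := hschur r fun x v hv => hr x v (hW0W hv)
    exact ⟨c, fun w hw => hw r c hc⟩
  have hWpow : ∀ r, ∀ w ∈ W, (((X ^ 2 ^ a - 1 : Module.End K V)) ^ r : Module.End K V) w ∈ W := by
    intro r
    induction r with
    | zero => intro w hw; simpa using hw
    | succ r ih =>
      intro w hw
      rw [pow_succ', Module.End.mul_apply, LinearMap.sub_apply, Module.End.one_apply]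
      exact W.sub_mem (hSd0 _ (ih w hw)) (ih w hw)
  have hzero : ∀ w ∈ W, (((X ^ 2 ^ a - 1 : Module.End K V)) ^ (2 ^ (n - a) - 1) : Module.End K V) w = 0 := by
    intro w hw
    by_contra hne0
    have hap : 1 ≤ 2 ^ a := Nat.one_le_pow _ _ hp.out.pos
    have hP' : 1 ≤ 2 ^ (n - a) := Nat.one_le_pow _ _ hp.out.pos
    have hdd : 2 ^ a * 2 ^ (n - a) = 2 ^ n := by rw [← pow_add, Nat.add_sub_cancel' ha]
    have h0 : ((X - 1 : Module.End K V) ^ ((2 ^ a - 1) + 2 ^ a * (2 ^ (n - a) - 1)) : Module.End K V) w = 0 := by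
      rw [show (2 ^ a - 1) + 2 ^ a * (2 ^ (n - a) - 1) = 2 ^ n - 1 by
        rw [Nat.mul_sub, mul_one, hdd]
        have := Nat.pow_le_pow_right hp.out.pos ha
        omega, hk, LinearMap.zero_apply]
    rw [pow_add, pow_mul, sub_one_pow_char_pow (K := K), sub_one_pow_eq_geom_sum (K := K), Module.End.mul_apply,
      LinearMap.sum_apply] at h0
    exact one_ne_zero (hind _ (hWpow _ w hw) hne0 (fun _ => (1 : K)) (by simpa using h0) 0 (pow_pos hp.out.pos a))
  have han : a < n := by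
    refine lt_of_le_of_ne ha fun h => ?_
    obtain ⟨w, hw, hwne⟩ := Submodule.exists_mem_ne_zero_of_ne_bot hWne
    have h1 := hzero w hw
    rw [h, Nat.sub_self, pow_zero, Nat.sub_self, pow_zero, Module.End.one_apply] at h1
    exact hwne h1
  haveI : Nontrivial W := Submodule.nontrivial_iff_ne_bot.mpr hWne
  let ρW : Q →* Module.End K W :=
    { toFun := fun x => (ρ x).restrict (hWinv x)
      map_one' := by ext v; simp [LinearMap.restrict_apply]
      map_mul' := fun x y => by ext v; simp [LinearMap.restrict_apply] }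
  have hρW : ∀ x (v : W), (ρW x v : V) = ρ x v := fun x v => rfl
  set d0 := 2 ^ a with hd0
  let T : Module.End K W := (X ^ d0).restrict hSd0
  let τ : MulAut Q := σ ^ d0
  set P := 2 ^ (n - a) with hPdef
  have hd0P : d0 * P = 2 ^ n := by rw [hd0, hPdef, ← pow_add, Nat.add_sub_cancel' ha]
  have hP1 : 1 < P := Nat.one_lt_pow (by omega) hp.out.one_lt
  have hTpow : ∀ (k : ℕ) (v : W), (((T ^ k) v : W) : V) = (X ^ (d0 * k)) (v : V) := by
    intro k
    induction k with
    | zero => simp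
    | succ k ih =>
      intro v
      rw [pow_succ', Module.End.mul_apply, Nat.mul_succ, add_comm, pow_add, Module.End.mul_apply, ← ih v]
      rfl
  have hT : T ^ P = 1 := LinearMap.ext fun v => Subtype.ext (by rw [hTpow, hd0P, hX]; rfl)
  have hTρ : ∀ x, T * ρW x = ρW (τ x) * T := fun x =>
    LinearMap.ext fun v => Subtype.ext (hXpow d0 x v)
  have hyy : ∃ m, y = τ ^ m ∧ m = 2 ^ (n - 1 - a) := by
    refine ⟨_, ?_, rfl⟩
    rw [hy, show τ = σ ^ d0 from rfl, ← pow_mul, hd0, ← pow_add, Nat.add_sub_cancel' (by omega)]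
  obtain ⟨m, hym, hm⟩ := hyy
  have hWscal : ∀ x (c : K), (∀ v ∈ W0, ρ x v = c • v) → ρW x = c • 1 := fun x c hc =>
    LinearMap.ext fun v => Subtype.ext (v.2 x c hc)
  have hscal : ∀ r, (∀ w, Commute (ρW r) (ρW w)) → ∃ c : K, ρW r = c • 1 := by
    intro r hr
    obtain ⟨c, hc⟩ := hschur r fun x v hv =>
      congrArg Subtype.val (LinearMap.congr_fun (hr x).eq ⟨v, hW0W hv⟩)
    exact ⟨c, hWscal r c hc⟩
  have hρWinv : ∀ x, ρW x * ρW x⁻¹ = 1 ∧ ρW x⁻¹ * ρW x = 1 := fun x => by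
    rw [← map_mul, ← map_mul, mul_inv_cancel, inv_mul_cancel, map_one]; exact ⟨rfl, rfl⟩
  have hcomm : ∀ x z, ∃ c : K, ρW x * ρW z = c • (ρW z * ρW x) := fun x z => by
    obtain ⟨c, hc⟩ := hcommR x z
    refine ⟨c, ?_⟩
    rw [← map_mul, ← map_mul, show x * z = ⁅x, z⁆ * (z * x) by rw [commutatorElement_def]; group, map_mul,
      hWscal _ c hc, smul_mul_assoc, one_mul]
  have hρWne : ∀ x, ρW x ≠ 0 := fun x h => by
    have h1 := (hρWinv x).1
    rw [h, zero_mul] at h1
    exact zero_ne_one h1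
  have hTk : ∀ (k : ℕ) x, T ^ k * ρW x = ρW ((τ ^ k) x) * T ^ k := by
    intro k
    induction k with
    | zero => simp
    | succ k ih => intro x; rw [pow_succ', mul_assoc, ih, ← mul_assoc, hTρ, mul_assoc, pow_succ', MulAut.mul_apply]
  have hTkinv : ∀ k, T ^ k * T ^ (k * (P - 1)) = 1 := fun k => by
    rw [← pow_add, show k + k * (P - 1) = P * k by
      rw [add_comm, ← Nat.mul_succ, Nat.succ_eq_add_one, Nat.sub_add_cancel hP1.le, mul_comm], pow_mul, hT, one_pow]
  have hfpf : ∀ x, ∀ i, 0 < i → i < P → (∃ c : K, ρW ((τ ^ i) x) = c • ρW x) → ∃ c : K, ρW x = c • 1 := by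
    intro x i hi hiP hix
    let M : ℕ → Prop := fun k => ∃ c : K, ρW ((τ ^ k) x) = c • ρW x
    have hMk : ∀ k z (c : K), ρW z = c • ρW x → ρW ((τ ^ k) z) = c • ρW ((τ ^ k) x) := by
      intro k z c hz
      have h : ∀ z, ρW ((τ ^ k) z) = T ^ k * ρW z * T ^ (k * (P - 1)) := fun z => by
        rw [hTk, mul_assoc, hTkinv, mul_one]
      rw [h, h, hz, mul_smul_comm, smul_mul_assoc]
    have hMadd : ∀ k l, M k → M l → M (k + l) := by
      rintro k l ⟨c, hc⟩ ⟨d, hd⟩
      exact ⟨d * c, by rw [pow_add, MulAut.mul_apply, hMk k _ d hd, hc, smul_smul]⟩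
    have hMsub : ∀ k l, M k → M (k + l) → M l := by
      rintro k l ⟨c, hc⟩ ⟨d, hd⟩
      have hc0 : c ≠ 0 := fun h => hρWne _ (by rw [hc, h, zero_smul])
      refine ⟨c⁻¹ * d, ?_⟩
      have h1 : T ^ k * ρW ((τ ^ l) x) = T ^ k * ((c⁻¹ * d) • ρW x) := by
        rw [hTk, mul_smul_comm, hTk, ← MulAut.mul_apply, ← pow_add, hd, hc, smul_mul_assoc, smul_mul_assoc,
          smul_smul, mul_assoc, mul_comm d c, ← mul_assoc, inv_mul_cancel₀ hc0, one_mul]
      have h2 := congrArg (fun Y => T ^ (k * (P - 1)) * Y) h1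
      have hcm : T ^ (k * (P - 1)) * T ^ k = 1 := by rw [← pow_add, add_comm, pow_add, hTkinv]
      simpa only [← mul_assoc, hcm, one_mul] using h2
    have hMP : M P := ⟨1, by
      have h := hTk P x
      rw [hT, one_mul, mul_one] at h
      rw [← h, one_smul]⟩
    obtain ⟨d, hdpos, hMd, hddvd, hdmul⟩ := exists_dvd_of_closed hMadd hMsub (P := i) hi hix
    obtain ⟨t, ht, hdt⟩ := (Nat.dvd_prime_pow hp.out).mp (hddvd P hMP)
    have ht' : t < n - a := by
      by_contra hcon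
      have h1 : d = P := by rw [hdt, hPdef, show t = n - a by omega]
      have := Nat.le_of_dvd hi (hddvd i hix)
      omega
    have hMm : M m := by
      have hdm : d * (2 ^ (n - 1 - a - t) - 1 + 1) = m := by
        rw [Nat.sub_add_cancel (Nat.one_le_pow _ _ hp.out.pos), hdt, hm, ← pow_add, Nat.add_sub_cancel' (by omega)]
      exact hdm ▸ hdmul _
    obtain ⟨c, hc⟩ := hMm
    rw [← hym] at hc
    -- the scalar is `1`
    have hck : ∀ k, ρW ((y ^ k) x) = c ^ k • ρW x := by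
      intro k
      induction k with
      | zero => simp
      | succ k ih =>
        have h := hMk m _ _ ih
        rw [← hym] at h
        rw [pow_succ', MulAut.mul_apply, h, hc, smul_smul, pow_succ]
    have hcp : c ^ 2 = 1 := by
      have h := hck 2
      rw [hy, ← pow_mul, ← pow_succ, Nat.sub_add_cancel hn, hσ, MulAut.one_apply] at h
      refine smul_left_injective K (m := ρW x) (hρWne x) ?_
      show c ^ 2 • ρW x = (1 : K) • ρW x
      rw [← h, one_smul]
    obtain ⟨j, hj⟩ := IsPGroup.iff_card.mp hQ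
    have hpowQ : ∀ z : Q, z ^ (q ^ j) = 1 := fun z => hj ▸ pow_card_eq_one'
    have hcq : c ^ (q ^ j) = 1 := by
      have h := congrArg (fun Y => Y ^ (q ^ j)) hc
      simp only [smul_pow, ← map_pow, hpowQ, map_one] at h
      refine smul_left_injective K (m := (1 : Module.End K W)) one_ne_zero ?_
      show c ^ (q ^ j) • (1 : Module.End K W) = (1 : K) • 1
      rw [← h, one_smul]
    have hc1 : c = 1 := orderOf_eq_one_iff.mp (Nat.eq_one_of_dvd_coprimes
      (((Nat.coprime_primes hp.out Fact.out).mpr hpq).pow_right j)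
      (orderOf_dvd_of_pow_eq_one hcp) (orderOf_dvd_of_pow_eq_one hcq))
    rw [hc1, one_smul] at hc
    -- hence central
    refine hscal x fun w => ?_
    let Cx : Subgroup Q :=
      { carrier := {g | ρW g * ρW x = ρW x * ρW g}
        one_mem' := by simp
        mul_mem' := fun {g g'} hg hg' => by
          show ρW (g * g') * ρW x = ρW x * ρW (g * g')
          rw [map_mul, mul_assoc, show ρW g' * ρW x = ρW x * ρW g' from hg', ← mul_assoc,
            show ρW g * ρW x = ρW x * ρW g from hg, mul_assoc]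
        inv_mem' := fun {g} hg => by
          show ρW g⁻¹ * ρW x = ρW x * ρW g⁻¹
          calc ρW g⁻¹ * ρW x = ρW g⁻¹ * (ρW x * ρW g) * ρW g⁻¹ := by rw [mul_assoc, mul_assoc, (hρWinv g).1, mul_one]
            _ = ρW x * ρW g⁻¹ := by
              rw [← show ρW g * ρW x = ρW x * ρW g from hg, ← mul_assoc, (hρWinv g).2, one_mul] }
    have hle : Subgroup.closure (Set.range fun s => y s * s⁻¹) ≤ Cx := by
      rw [Subgroup.closure_le]
      rintro _ ⟨s, rfl⟩
      show ρW (y s * s⁻¹) * ρW x = ρW x * ρW (y s * s⁻¹)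
      obtain ⟨cc, hcc⟩ := hcomm x s
      obtain ⟨dd, hdd⟩ := hcomm x (y s)
      obtain ⟨c1, hc1'⟩ := hcommR x s
      have hcd : cc = dd := by
        have e1 : ρW ⁅x, s⁆ = c1 • 1 := hWscal _ _ hc1'
        have e2 : cc = c1 := by
          refine smul_left_injective K (m := ρW s * ρW x) ?_ ?_
          · rw [← map_mul]; exact hρWne _
          · show cc • _ = c1 • _
            rw [← hcc, ← map_mul, ← map_mul, show x * s = ⁅x, s⁆ * (s * x) by rw [commutatorElement_def]; group,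
              map_mul, e1, smul_mul_assoc, one_mul]
        have e3 : dd = c1 := by
          refine smul_left_injective K (m := ρW (y s) * ρW x) ?_ ?_
          · rw [← map_mul]; exact hρWne _
          · show dd • _ = c1 • _
            have h5 : ρW ⁅y x, y s⁆ = c1 • 1 := by
              rw [show ⁅y x, y s⁆ = ⁅x, s⁆ from (map_commutatorElement y.toMonoidHom x s).symm.trans (hfix x s), e1]
            rw [← hdd, ← hc]
            rw [← map_mul, ← map_mul]
            rw [show y (x * s) = ⁅y x, y s⁆ * (y s * y x) by rw [map_mul, commutatorElement_def]; group,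
              map_mul, h5, smul_mul_assoc, one_mul, map_mul]
        rw [e2, e3]
      subst hcd
      have hcc0 : cc ≠ 0 := fun h => hρWne (x * s) (by rw [map_mul, hcc, h, zero_smul])
      have hs' : cc • (ρW x * ρW s⁻¹) = ρW s⁻¹ * ρW x := by
        calc cc • (ρW x * ρW s⁻¹) = ρW s⁻¹ * (cc • (ρW s * ρW x)) * ρW s⁻¹ := by
              rw [mul_smul_comm, smul_mul_assoc, ← mul_assoc (ρW s⁻¹), (hρWinv s).2, one_mul]
          _ = ρW s⁻¹ * ρW x := by rw [← hcc, mul_assoc, mul_assoc, (hρWinv s).1, mul_one]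
      rw [map_mul, mul_assoc, ← hs', mul_smul_comm, ← mul_assoc, ← mul_assoc, hdd, smul_mul_assoc]
    have h : ρW w * ρW x = ρW x * ρW w := hle (hgen ▸ Subgroup.mem_top w)
    exact h.symm
  have hne : ∃ x, ∀ c : K, ρW x ≠ c • 1 := by
    by_contra hall
    simp only [not_exists, not_forall, not_not] at hall
    have htriv : ∀ x, ρW (y x * x⁻¹) = 1 := fun x => by
      obtain ⟨c, hc⟩ := hall x
      have h := hTk m x
      rw [← hym, hc, mul_smul_comm, mul_one] at h
      have h2 := congrArg (fun Y => Y * T ^ (m * (P - 1))) h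
      simp only [smul_mul_assoc, mul_assoc, hTkinv, mul_one] at h2
      rw [map_mul, ← h2, ← hc, (hρWinv x).1]
    have hker' : Subgroup.closure (Set.range fun s => y s * s⁻¹) ≤ ρW.ker := by
      rw [Subgroup.closure_le]
      rintro _ ⟨s, rfl⟩
      exact htriv s
    refine hw0ne (hnofix w0 (LinearMap.mem_ker.mp (hW0e hw0)) fun x => ?_)
    exact congrArg Subtype.val (LinearMap.congr_fun (MonoidHom.mem_ker.mp (hker' (hgen ▸ Subgroup.mem_top x))) ⟨w0, hW0W hw0⟩)
  have hdegT : (T - 1) ^ (P - 1) = 0 := by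
    refine LinearMap.ext fun v => Subtype.ext ?_
    have h : ∀ (r : ℕ) (v : W), (((T - 1) ^ r) v : V) = ((X ^ d0 - 1 : Module.End K V) ^ r) (v : V) := by
      intro r
      induction r with
      | zero => simp
      | succ r ih =>
        intro v
        rw [pow_succ', Module.End.mul_apply, pow_succ', Module.End.mul_apply, ← ih v]
        rfl
    rw [h]
    exact hzero (v : V) v.2
  obtain ⟨N, e, hN2, hNe, hidx, hNP, hYT⟩ :=
    exists_factor2 hQ ρW T τ P hP1 hT hTρ hcomm hscal hfpf hne (n - a) rfl hdegT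
  refine ⟨W, a, N, e, han, hWne, hSd0, hWinv, hWcomm, hscalW, hN2, hNP, hNe, ?_, fun Y hY => ?_⟩
  · rw [← hidx]
    refine congrArg (· * N ^ 2) (Nat.card_congr (Equiv.subtypeEquivRight fun x => exists_congr fun c => ?_))
    exact ⟨fun h => LinearMap.ext fun v => Subtype.ext (h v v.2),
      fun h w hw => congrArg Subtype.val (LinearMap.congr_fun h ⟨w, hw⟩)⟩
  have hYW : ∀ w ∈ W, Y w ∈ W := fun w hw r c hc => by
    rw [← Module.End.mul_apply, ← hY, Module.End.mul_apply, hw r c hc, map_smul]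
  refine ⟨hYW, fun w hw => ?_⟩
  have h := hYT (Y.restrict hYW) fun x => LinearMap.ext fun v => Subtype.ext
    (LinearMap.congr_fun (hY x) (v : V))
  exact congrArg Subtype.val (LinearMap.congr_fun h ⟨w, hw⟩)

end Cfsg.Agent.KnownA.GrossLength
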