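/-
Gross's bound on the 2-length, linear part: an odd group generated by `e` and its translate under `T`,
where `T * T = τ` inverts `e` and `T - 1` has its image in the minus space of `τ`, of dimension at most two.
-/
import Cfsg.Agent.OddLocal.CN
import Mathlib

set_option autoImplicit false
set_option linter.style.haveILetI false
set_option linter.unusedSectionVars false
set_option maxSynthPendingDepth 4

namespace Cfsg.Agent.KnownA.GrossLength

open Module
open scoped commutatorElement

universe u v w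

/-- The common hypotheses. -/
structure PlaneData {F : Type u} [Field F] {U : Type v} [AddCommGroup U] [Module F U] {A : Type w} [Group A]
    (π : A →* Module.End F U) (τ T : Module.End F U) (e f : A) : Prop where
  tau_sq : τ * τ = 1
  T_sq : T * T = τ
  T_small : ∃ Y : Module.End F U, T - 1 = (τ - 1) * Y
  gen : Subgroup.closure ({e, f} : Set A) = ⊤
  inv : τ * π e = π e⁻¹ * τ
  conj : T * π e = π f * T
  dim : finrank F (LinearMap.range (τ - 1)) ≤ 2

variable {F : Type u} [Field F] {U : Type v} [AddCommGroup U] [Module F U] {A : Type w} [Group A] [Finite A]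
  {π : A →* Module.End F U} {τ T : Module.End F U} {e f : A}

namespace PlaneData

theorem tau_comm (D : PlaneData π τ T e f) : τ * T = T * τ := by rw [← D.T_sq, mul_assoc]

theorem T_inv (D : PlaneData π τ T e f) : T * (T * τ) = 1 ∧ (T * τ) * T = 1 :=
  ⟨by rw [← mul_assoc, D.T_sq, D.tau_sq], by rw [← D.tau_comm, mul_assoc, D.T_sq, D.tau_sq]⟩

theorem pi_inv (π : A →* Module.End F U) (a : A) : π a * π a⁻¹ = 1 ∧ π a⁻¹ * π a = 1 := by
  rw [← map_mul, ← map_mul, mul_inv_cancel, inv_mul_cancel, map_one]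
  exact ⟨rfl, rfl⟩

theorem conj_inv (D : PlaneData π τ T e f) : T * π e⁻¹ = π f⁻¹ * T := by
  have h := congrArg (fun Z => π f⁻¹ * Z * π e⁻¹) D.conj
  simp only [mul_assoc, (pi_inv π e).1, mul_one] at h
  rw [← mul_assoc (π f⁻¹) (π f), (pi_inv π f).2, one_mul] at h
  exact h.symm

theorem conj_f (D : PlaneData π τ T e f) : T * π f = π e⁻¹ * T := by
  have h : π f = T * π e * (T * τ) := by rw [D.conj, mul_assoc, D.T_inv.1, mul_one]
  calc T * π f = T * T * π e * (T * τ) := by rw [h]; simp only [mul_assoc]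
    _ = π e⁻¹ * τ * (T * τ) := by rw [D.T_sq, D.inv]
    _ = π e⁻¹ * (τ * T * τ) := by simp only [mul_assoc]
    _ = π e⁻¹ * T := by rw [D.tau_comm, mul_assoc T, D.tau_sq, mul_one]

theorem inv_f (D : PlaneData π τ T e f) : τ * π f = π f⁻¹ * τ := by
  rw [← D.T_sq, mul_assoc, D.conj_f, ← mul_assoc, D.conj_inv, mul_assoc]

/-- `τ` maps the image to itself. -/
theorem tau_mem (D : PlaneData π τ T e f) (a : A) : ∃ b, τ * π a = π b * τ := by
  have h : a ∈ Subgroup.closure ({e, f} : Set A) := D.gen ▸ Subgroup.mem_top a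
  induction h using Subgroup.closure_induction with
  | mem x hx =>
    rcases hx with rfl | hx
    · exact ⟨_, D.inv⟩
    · rw [Set.mem_singleton_iff] at hx; subst hx; exact ⟨_, D.inv_f⟩
  | one => exact ⟨1, by simp⟩
  | mul x y _ _ hx hy =>
    obtain ⟨b, hb⟩ := hx
    obtain ⟨c, hc⟩ := hy
    exact ⟨b * c, by rw [map_mul, map_mul, ← mul_assoc, hb, mul_assoc, hc, mul_assoc]⟩
  | inv x _ hx =>
    obtain ⟨b, hb⟩ := hx
    refine ⟨b⁻¹, ?_⟩
    have h := congrArg (fun Z => π b⁻¹ * Z * π x⁻¹) hb
    simp only [mul_assoc, (pi_inv π x).1, mul_one] at h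
    rw [← mul_assoc (π b⁻¹) (π b), (pi_inv π b).2, one_mul] at h
    exact h.symm

/-- `T` maps the image to itself. -/
theorem T_mem (D : PlaneData π τ T e f) (a : A) : ∃ b, T * π a = π b * T := by
  have h : a ∈ Subgroup.closure ({e, f} : Set A) := D.gen ▸ Subgroup.mem_top a
  induction h using Subgroup.closure_induction with
  | mem x hx =>
    rcases hx with rfl | hx
    · exact ⟨_, D.conj⟩
    · rw [Set.mem_singleton_iff] at hx; subst hx; exact ⟨_, D.conj_f⟩
  | one => exact ⟨1, by simp⟩
  | mul x y _ _ hx hy =>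
    obtain ⟨b, hb⟩ := hx
    obtain ⟨c, hc⟩ := hy
    exact ⟨b * c, by rw [map_mul, map_mul, ← mul_assoc, hb, mul_assoc, hc, mul_assoc]⟩
  | inv x _ hx =>
    obtain ⟨b, hb⟩ := hx
    refine ⟨b⁻¹, ?_⟩
    have h := congrArg (fun Z => π b⁻¹ * Z * π x⁻¹) hb
    simp only [mul_assoc, (pi_inv π x).1, mul_one] at h
    rw [← mul_assoc (π b⁻¹) (π b), (pi_inv π b).2, one_mul] at h
    exact h.symm

/-- The image of every `π a - 1` lies in the sum of two minus spaces. -/
theorem exists_small (D : PlaneData π τ T e f) (hodd : Odd (Nat.card A)) : ∃ h : A,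
    ∀ a v, π a v - v ∈ LinearMap.range (τ - 1) ⊔ (LinearMap.range (τ - 1)).map (π h) := by
  obtain ⟨m, hm⟩ := hodd.of_dvd_nat (orderOf_dvd_natCard e)
  set h := e ^ (m + 1) with hh
  refine ⟨h, ?_⟩
  set P := LinearMap.range (τ - 1) with hP
  set X := P ⊔ P.map (π h) with hX
  have hpow : ∀ i : ℕ, τ * π (e ^ i) = π (e⁻¹ ^ i) * τ := by
    intro i
    induction i with
    | zero => simp
    | succ i ih => rw [pow_succ, map_mul, ← mul_assoc, ih, mul_assoc, D.inv, ← mul_assoc, ← map_mul, ← pow_succ]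
  have hsq : π h * π h = π e := by
    rw [← map_mul, hh, ← pow_add, show m + 1 + (m + 1) = orderOf e + 1 by omega, pow_succ, pow_orderOf_eq_one,
      one_mul]
  have hfac : π e - 1 = π h * (τ - 1) * (π h⁻¹ * τ) + (τ - 1) := by
    have e1 : τ * (π h⁻¹ * τ) = π h := by
      have := hpow (m + 1)
      rw [inv_pow, ← hh] at this
      rw [← this, ← mul_assoc, D.tau_sq, one_mul]
    rw [mul_assoc, sub_mul, one_mul, mul_sub, e1, hsq, ← mul_assoc, (pi_inv π h).1, one_mul]
    abel
  obtain ⟨Y, hY⟩ := D.T_small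
  have hT : ∀ v ∈ X, T v ∈ X := fun v hv => by
    have h1 := LinearMap.congr_fun hY v
    rw [Module.End.mul_apply, LinearMap.sub_apply, Module.End.one_apply] at h1
    have := X.add_mem (Submodule.mem_sup_left (h1 ▸ LinearMap.mem_range_self (τ - 1) (Y v) : T v - v ∈ P)) hv
    rwa [sub_add_cancel] at this
  have he : ∀ v, π e v - v ∈ X := fun v => by
    have := LinearMap.congr_fun hfac v
    rw [LinearMap.sub_apply, Module.End.one_apply] at this
    rw [this]
    exact Submodule.add_mem _ (Submodule.mem_sup_right ⟨_, LinearMap.mem_range_self _ _, rfl⟩)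
      (Submodule.mem_sup_left (LinearMap.mem_range_self _ _))
  intro a
  have h : a ∈ Subgroup.closure ({e, f} : Set A) := D.gen ▸ Subgroup.mem_top a
  induction h using Subgroup.closure_induction with
  | mem x hx =>
    rcases hx with rfl | hx
    · exact he
    · rw [Set.mem_singleton_iff] at hx; subst hx
      intro v
      have h1 := hT _ (he ((T * τ) v))
      rw [map_sub, ← Module.End.mul_apply T, D.conj, Module.End.mul_apply, ← Module.End.mul_apply T (T * τ),
        D.T_inv.1, Module.End.one_apply] at h1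
      exact h1
  | one => intro v; simp
  | mul x y _ _ hx hy =>
    intro v
    rw [map_mul, Module.End.mul_apply, ← sub_add_sub_cancel _ (π y v) v]
    exact X.add_mem (hx _) (hy v)
  | inv x _ hx =>
    intro v
    have := X.neg_mem (hx (π x⁻¹ v))
    rwa [← Module.End.mul_apply, (pi_inv π x).1, Module.End.one_apply, neg_sub] at this

end PlaneData

set_option maxHeartbeats 1000000 in
/-- Coprime characteristic: the commutator acts trivially. -/
theorem commutator_eq_one_of_coprime [IsAlgClosed F] [FiniteDimensional F U] {q : ℕ} [hq : Fact q.Prime]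
    (hA : IsPGroup q A) (hq2 : q ≠ 2) (hqF : (q : F) ≠ 0) (D : PlaneData π τ T e f)
    (hiso : ∀ (z : A) (ω : F), (∀ v ∈ LinearMap.range (τ - 1), π z v = ω • v) → ω * ω = 1) :
    π ⁅e, f⁆ = 1 := by
  classical
  by_contra hne
  have hodd : Odd (Nat.card A) := by
    obtain ⟨k, hk⟩ := IsPGroup.iff_card.mp hA
    rw [hk]; exact (hq.out.odd_of_ne_two hq2).pow
  have hcardF : (Nat.card A : F) ≠ 0 := by
    obtain ⟨k, hk⟩ := IsPGroup.iff_card.mp hA
    rw [hk, Nat.cast_pow]; exact pow_ne_zero _ hqF
  set M := Nat.card A with hM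
  let uT : (Module.End F U)ˣ := ⟨τ, τ, D.tau_sq, D.tau_sq⟩
  let Γ : Subgroup (Module.End F U)ˣ := π.toHomUnits.range
  have hΓp : IsPGroup q Γ := hA.of_surjective π.toHomUnits.rangeRestrict π.toHomUnits.rangeRestrict_surjective
  haveI : Finite Γ := Finite.of_surjective _ π.toHomUnits.rangeRestrict_surjective
  haveI : Group.IsNilpotent Γ := hΓp.isNilpotent
  have hconjΓ : ∀ g ∈ Γ, uT * g * uT⁻¹ ∈ Γ := by
    rintro _ ⟨a, rfl⟩
    obtain ⟨b, hb⟩ := D.tau_mem a
    refine ⟨b, Units.ext ?_⟩
    show π b = τ * π a * τ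
    rw [hb, mul_assoc, D.tau_sq, mul_one]
  have hcomm1 : commutator Γ ≠ ⊥ := fun h => hne (by
    have h1 : ⁅π.toHomUnits.rangeRestrict e, π.toHomUnits.rangeRestrict f⁆ ∈ commutator Γ :=
      Subgroup.commutator_mem_commutator (Subgroup.mem_top _) (Subgroup.mem_top _)
    rw [h, Subgroup.mem_bot, ← map_commutatorElement] at h1
    exact congrArg Units.val (congrArg Subtype.val h1))
  obtain ⟨⟨z₀, hz₀Γ⟩, hz₀C, hz₀1, hz₀Z⟩ := OddLocal.exists_ne_one_mem_center_of_normal (commutator Γ) hcomm1
  have hC : ∀ g ∈ commutator Γ, (g : (Module.End F U)ˣ) ∈ (⁅Γ, Γ⁆ : Subgroup _) := fun g hg => by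
    have h := Subgroup.mem_map_of_mem Γ.subtype hg
    rw [commutator_def, Subgroup.map_commutator, ← MonoidHom.range_eq_map, Subgroup.range_subtype] at h
    exact h
  have hz0C := hC _ hz₀C
  have hz0c : ∀ g ∈ Γ, g * z₀ = z₀ * g := fun g hg =>
    congrArg Subtype.val (Subgroup.mem_center_iff.mp hz₀Z ⟨g, hg⟩)
  have hz1C : uT * z₀ * uT⁻¹ ∈ (⁅Γ, Γ⁆ : Subgroup _) := by
    have hle : Γ.map (MulAut.conj uT).toMonoidHom ≤ Γ := by
      rintro _ ⟨g, hg, rfl⟩
      exact hconjΓ g hg
    have h := Subgroup.mem_map_of_mem (MulAut.conj uT).toMonoidHom hz0C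
    rw [Subgroup.map_commutator] at h
    exact Subgroup.commutator_mono hle hle h
  have hz1c : ∀ g ∈ Γ, g * (uT * z₀ * uT⁻¹) = uT * z₀ * uT⁻¹ * g := fun g hg => by
    have h : uT⁻¹ * g * uT ∈ Γ := by
      have h0 := hconjΓ g hg
      have hu : uT⁻¹ = uT := Units.ext rfl
      rw [hu] at h0 ⊢
      exact h0
    have h1 := congrArg (fun x => uT * x * uT⁻¹) (hz0c _ h)
    simpa [mul_assoc] using h1
  obtain ⟨z, hzC, hz1, hzc, hzinv⟩ : ∃ z ∈ (⁅Γ, Γ⁆ : Subgroup (Module.End F U)ˣ), z ≠ 1 ∧ (∀ g ∈ Γ, g * z = z * g) ∧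
      (uT * z * uT⁻¹ = z ∨ uT * z * uT⁻¹ = z⁻¹) := by
    by_cases hw : z₀ * (uT * z₀ * uT⁻¹) = 1
    · exact ⟨z₀, hz0C, fun h => hz₀1 (Subtype.ext h), hz0c, Or.inr (eq_inv_of_mul_eq_one_right hw)⟩
    · refine ⟨_, mul_mem hz0C hz1C, hw, fun g hg => ?_, Or.inl ?_⟩
      · rw [← mul_assoc, hz0c g hg, mul_assoc, hz1c g hg, ← mul_assoc]
      · have hu : uT * uT = 1 := Units.ext D.tau_sq
        have hu' : uT⁻¹ = uT := inv_eq_of_mul_eq_one_right hu
        rw [← hz0c _ (hconjΓ _ hz₀Γ)] at *
        rw [hu']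
        calc uT * (uT * z₀ * uT * z₀) * uT = (uT * uT) * z₀ * (uT * z₀ * uT) := by group
          _ = z₀ * (uT * z₀ * uT) := by rw [hu, one_mul]
          _ = uT * z₀ * uT * z₀ := by
            have := hz1c z₀ hz₀Γ
            rwa [hu'] at this
  have hΓC : (⁅Γ, Γ⁆ : Subgroup (Module.End F U)ˣ) ≤ Γ := Subgroup.commutator_le.mpr fun a ha b hb => by
    rw [commutatorElement_def]
    exact mul_mem (mul_mem (mul_mem ha hb) (inv_mem ha)) (inv_mem hb)
  obtain ⟨zA, hzA⟩ := hΓC hzC
  set Z := (z : Module.End F U) with hZ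
  have hzπ : π zA = Z := congrArg Units.val hzA
  have hcπ : ∀ a, π a * Z = Z * π a := fun a => congrArg Units.val (hzc _ ⟨a, rfl⟩)
  have hZM : Z ^ M = 1 := by rw [← hzπ, ← map_pow, hM, pow_card_eq_one', map_one]
  have hZne : Z ≠ 1 := fun h => hz1 (Units.ext h)
  -- an eigenvalue different from one
  obtain ⟨v, ω, hω, hv0, hv⟩ : ∃ (v : U) (ω : F), ω ≠ 1 ∧ v ≠ 0 ∧ Z v = ω • v := by
    set R := LinearMap.range (Z - 1)
    have hinv : ∀ x ∈ R, Z x ∈ R := by
      rintro _ ⟨y, rfl⟩
      exact ⟨Z y, by simp⟩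
    haveI : Nontrivial R := Submodule.nontrivial_iff_ne_bot.mpr fun h0 =>
      hZne (sub_eq_zero.mp (LinearMap.range_eq_bot.mp h0))
    obtain ⟨ω, hω⟩ := Module.End.exists_eigenvalue (K := F) (V := R) (Z.restrict hinv)
    obtain ⟨x, hx⟩ := hω.exists_hasEigenvector
    have hxe : Z (x : U) = ω • (x : U) := congrArg Subtype.val hx.apply_eq_smul
    refine ⟨x, ω, fun h1 => hx.2 (Subtype.ext ?_), fun h0 => hx.2 (Subtype.ext h0), hxe⟩
    obtain ⟨y, hy⟩ := x.2
    rw [← hy] at hxe ⊢
    rw [h1, one_smul, LinearMap.sub_apply, Module.End.one_apply] at hxe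
    rw [LinearMap.sub_apply, Module.End.one_apply]
    show Z y - y = 0
    have : ∀ k : ℕ, (Z ^ k) y = y + (k : F) • (Z y - y) := by
      intro k
      induction k with
      | zero => simp
      | succ k ih =>
        rw [pow_succ', Module.End.mul_apply, ih, map_add, map_smul, hxe]
        push_cast
        rw [add_smul, one_smul]
        abel
    have h1 := this M
    rw [hZM, Module.End.one_apply, left_eq_add, smul_eq_zero] at h1
    exact h1.resolve_left hcardF
  have hωM : ω ^ M = 1 := by
    have : ∀ j : ℕ, (Z ^ j) v = ω ^ j • v := by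
      intro j
      induction j with
      | zero => simp
      | succ j ih => rw [pow_succ', Module.End.mul_apply, ih, map_smul, hv, smul_smul, pow_succ]
    have h1 := this M
    rw [hZM, Module.End.one_apply] at h1
    exact smul_left_injective F hv0 (show ω ^ M • v = (1 : F) • v by rw [one_smul]; exact h1.symm)
  have hω0 : ω ≠ 0 := fun h0 => by
    rw [h0, zero_pow Nat.card_pos.ne'] at hωM; exact zero_ne_one hωM
  have hω2 : ω * ω ≠ 1 := fun h2 => hω (by
    obtain ⟨k, hk⟩ := hodd
    rw [← hωM, hk, pow_succ, pow_mul, pow_two, h2, one_pow, one_mul])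
  set W := Module.End.eigenspace Z ω with hW
  have hWA : ∀ a, ∀ w ∈ W, π a w ∈ W := fun a w hw => by
    rw [hW, Module.End.mem_eigenspace_iff] at hw ⊢
    rw [← Module.End.mul_apply, ← hcπ, Module.End.mul_apply, hw, map_smul]
  set P := LinearMap.range (τ - 1) with hP
  -- the eigenspace has dimension at most two
  have hdimW : finrank F W ≤ 2 := by
    rcases hzinv with hz | hz
    · have hτZ : τ * Z = Z * τ := by
        have h : τ * Z * τ = Z := congrArg Units.val hz
        calc τ * Z = τ * Z * (τ * τ) := by rw [D.tau_sq, mul_one]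
          _ = Z * τ := by rw [← mul_assoc, h]
      obtain ⟨h, hX⟩ := D.exists_small hodd
      set Y := ω⁻¹ • Z with hY
      set S := ∑ i ∈ Finset.range M, Y ^ i with hS
      have hYM : Y ^ M = 1 := by rw [hY, smul_pow, inv_pow, hωM, inv_one, one_smul, hZM]
      have hSW : ∀ u, S u ∈ W := fun u => by
        rw [hW, Module.End.mem_eigenspace_iff]
        have h1 := LinearMap.congr_fun (mul_geom_sum Y M) u
        rw [hYM, sub_self, LinearMap.zero_apply, Module.End.mul_apply, LinearMap.sub_apply, Module.End.one_apply,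
          sub_eq_zero] at h1
        rw [hY, LinearMap.smul_apply, inv_smul_eq_iff₀ hω0] at h1
        exact h1
      have hSP : ∀ p ∈ P, S p ∈ P := by
        rintro _ ⟨y, rfl⟩
        refine ⟨S y, ?_⟩
        rw [← Module.End.mul_apply, ← Module.End.mul_apply]
        congr 1
        rw [hS, Finset.mul_sum, Finset.sum_mul]
        refine Finset.sum_congr rfl fun i _ => ?_
        have hc : Commute (τ - 1) Y := by
          show (τ - 1) * (ω⁻¹ • Z) = (ω⁻¹ • Z) * (τ - 1)
          rw [mul_smul_comm, smul_mul_assoc, sub_mul, mul_sub, hτZ, one_mul, mul_one]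
        exact (hc.pow_right i).eq
      have hSh : S * π h = π h * S := by
        rw [hS, Finset.mul_sum, Finset.sum_mul]
        refine Finset.sum_congr rfl fun i _ => ?_
        have hc : Commute Y (π h) := by
          show (ω⁻¹ • Z) * π h = π h * (ω⁻¹ • Z)
          rw [mul_smul_comm, smul_mul_assoc, hcπ]
        exact (hc.pow_left i).eq
      set E := P ⊓ W with hE
      have hEle : finrank F E ≤ 1 := by
        by_contra hlt
        have hEP : E = P := Submodule.eq_of_le_of_finrank_le inf_le_left (le_trans D.dim (by omega))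
        refine hω2 (hiso zA ω fun p hp => ?_)
        rw [← hEP] at hp
        rw [hzπ]
        exact Module.End.mem_eigenspace_iff.mp hp.2
      have hWle : W ≤ E ⊔ E.map (π h) := fun u hu => by
        have hu' := Module.End.mem_eigenspace_iff.mp hu
        have hSu : S u = (M : F) • u := by
          rw [hS, LinearMap.sum_apply]
          have : ∀ i : ℕ, (Y ^ i) u = u := by
            intro i
            induction i with
            | zero => simp
            | succ i ih => rw [pow_succ', Module.End.mul_apply, ih, hY, LinearMap.smul_apply, hu', inv_smul_smul₀ hω0]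
          simp only [this, Finset.sum_const, Finset.card_range, Nat.cast_smul_eq_nsmul]
        have hmem : u ∈ P ⊔ P.map (π h) := by
          have h1 := hX zA u
          rw [hzπ, hu'] at h1
          have h2 : (ω - 1) • u ∈ P ⊔ P.map (π h) := by rw [sub_smul, one_smul]; exact h1
          exact (Submodule.smul_mem_iff _ (sub_ne_zero.mpr hω)).mp h2
        obtain ⟨p, hp, _, ⟨p', hp', rfl⟩, hsum⟩ := Submodule.mem_sup.mp hmem
        refine (Submodule.smul_mem_iff _ hcardF).mp ?_
        rw [← hSu, ← hsum, map_add, ← Module.End.mul_apply S (π h), hSh, Module.End.mul_apply]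
        exact Submodule.add_mem _ (Submodule.mem_sup_left ⟨hSP p hp, hSW p⟩)
          (Submodule.mem_sup_right ⟨_, ⟨hSP p' hp', hSW p'⟩, rfl⟩)
      refine (Submodule.finrank_mono hWle).trans ((Submodule.finrank_add_le_finrank_add_finrank _ _).trans ?_)
      have := Submodule.finrank_map_le (π h) E
      omega
    · have hτZ : ∀ u, Z (τ (Z u)) = τ u := fun u => by
        have h : τ * Z * τ = ((z⁻¹ : (Module.End F U)ˣ) : Module.End F U) := congrArg Units.val hz
        have h1 : Z * (τ * Z * τ) = 1 := by rw [h]; exact z.mul_inv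
        have h2 : Z * (τ * Z) = τ := by
          calc Z * (τ * Z) = Z * (τ * Z * τ) * τ := by simp only [mul_assoc, D.tau_sq, mul_one]
            _ = τ := by rw [h1, one_mul]
        exact LinearMap.congr_fun h2 u
      let g : W →ₗ[F] P := ((τ - 1).comp W.subtype).codRestrict P fun u => ⟨u, rfl⟩
      refine le_trans (LinearMap.finrank_le_finrank_of_injective (f := g) ((injective_iff_map_eq_zero _).mpr fun u hu => ?_))
        D.dim
      have hu0 : τ (u : U) = u := sub_eq_zero.mp (congrArg Subtype.val hu)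
      have hu' := Module.End.mem_eigenspace_iff.mp u.2
      have h2 := hτZ (u : U)
      rw [hu', map_smul, map_smul, hu0, hu', smul_smul] at h2
      by_contra hne0
      exact hω2 (smul_left_injective F (fun h => hne0 (Subtype.ext h)) (h2.trans (one_smul F (u : U)).symm))
  -- determinants
  let d : A →* F :=
    { toFun := fun a => LinearMap.det ((π a).restrict (hWA a))
      map_one' := by
        rw [show (π 1).restrict (hWA 1) = LinearMap.id from LinearMap.ext fun u => Subtype.ext (by simp)]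
        exact LinearMap.det_id
      map_mul' := fun a b => by
        rw [← LinearMap.det_comp]
        congr 1
        exact LinearMap.ext fun u => Subtype.ext (by simp) }
  have hdz : LinearMap.det ((π zA).restrict (hWA zA)) = 1 := by
    have hker : (⁅Γ, Γ⁆ : Subgroup (Module.End F U)ˣ) ≤ d.toHomUnits.ker.map π.toHomUnits := by
      rw [Subgroup.commutator_le]
      rintro _ ⟨a, rfl⟩ _ ⟨b, rfl⟩
      refine ⟨⁅a, b⁆, MonoidHom.mem_ker.mpr ?_, map_commutatorElement _ a b⟩
      rw [map_commutatorElement]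
      exact commutatorElement_eq_one_iff_mul_comm.mpr (mul_comm _ _)
    obtain ⟨a, ha, hae⟩ := hker hzC
    have hda : d a = 1 := congrArg Units.val (MonoidHom.mem_ker.mp ha)
    have hπa : π a = π zA := congrArg Units.val (hae.trans hzA.symm)
    rw [← hda]
    show _ = LinearMap.det _
    congr 1
    exact LinearMap.ext fun u => Subtype.ext (by simp [hπa])
  rw [show (π zA).restrict (hWA zA) = ω • LinearMap.id from LinearMap.ext fun u => Subtype.ext (by
      simpa [hzπ] using Module.End.mem_eigenspace_iff.mp u.2), LinearMap.det_smul, LinearMap.det_id, mul_one] at hdz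
  have hWpos : 0 < finrank F W := by
    refine Nat.pos_of_ne_zero fun h0 => hv0 ?_
    have h1 := Submodule.finrank_eq_zero.mp h0
    exact (Submodule.mem_bot F).mp (h1 ▸ Module.End.mem_eigenspace_iff.mpr hv)
  obtain h1 | h2 : finrank F W = 1 ∨ finrank F W = 2 := by omega
  · rw [h1, pow_one] at hdz; exact hω hdz
  · rw [h2, pow_two] at hdz; exact hω2 hdz

set_option maxHeartbeats 1000000 in
/-- Equal characteristic: the commutator acts quadratically against every `π a - 1`. -/
theorem commutator_quadratic {q : ℕ} [hq : Fact q.Prime] {U : Type v} [AddCommGroup U] [Module (ZMod q) U] [Finite U]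
    {π : A →* Module.End (ZMod q) U} {τ T : Module.End (ZMod q) U} (hA : IsPGroup q A) (hq4 : q % 4 = 3)
    (D : PlaneData π τ T e f) : ∀ a, (π ⁅e, f⁆ - 1) * (π a - 1) = 0 := by
  classical
  haveI : Module.Finite (ZMod q) U := Module.Finite.of_finite
  have hq2 : q ≠ 2 := by omega
  have h2 : (2 : ZMod q) ≠ 0 := by
    rw [show (2 : ZMod q) = ((2 : ℕ) : ZMod q) by norm_num, Ne, ZMod.natCast_eq_zero_iff]
    exact fun h => hq2 ((Nat.prime_dvd_prime_iff_eq hq.out Nat.prime_two).mp h)
  have hodd : Odd (Nat.card A) := by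
    obtain ⟨k, hk⟩ := IsPGroup.iff_card.mp hA
    rw [hk]; exact (hq.out.odd_of_ne_two hq2).pow
  obtain ⟨h, hXsmall⟩ := D.exists_small hodd
  set P := LinearMap.range (τ - 1) with hP
  set X := P ⊔ P.map (π h) with hX
  obtain ⟨Y, hY⟩ := D.T_small
  have hTP : ∀ v, T v - v ∈ P := fun v => ⟨Y v, (LinearMap.congr_fun hY v).symm⟩
  have hτP : ∀ v ∈ P, τ v = -v := by
    rintro _ ⟨y, rfl⟩
    rw [LinearMap.sub_apply, Module.End.one_apply, map_sub, ← Module.End.mul_apply, D.tau_sq, Module.End.one_apply,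
      neg_sub]
  have hmulv : ∀ a b v, π (a * b) v = π a (π b v) := fun a b v => by rw [map_mul, Module.End.mul_apply]
  -- invariant subspaces contain the plane or are fixed by `τ`
  have hdich : ∀ S : Submodule (ZMod q) U, (∀ v ∈ S, T v ∈ S) → (∀ v ∈ S, τ v ∈ S) → P ≤ S ∨ ∀ v ∈ S, τ v = v := by
    intro S hST hSτ
    by_cases hall : ∀ v ∈ S, τ v = v
    · exact Or.inr hall
    left
    push Not at hall
    obtain ⟨u, hu, hune⟩ := hall
    set v := τ u - u with hv
    have hvS : v ∈ S := S.sub_mem (hSτ u hu) hu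
    have hvP : v ∈ P := ⟨u, rfl⟩
    have hv0 : v ≠ 0 := sub_ne_zero.mpr hune
    have hTvP : T v ∈ P := by
      have := P.add_mem (hTP v) hvP
      rwa [sub_add_cancel] at this
    have hli : LinearIndependent (ZMod q) ![v, T v] := by
      rw [LinearIndependent.pair_iff' hv0]
      intro l hl
      have hTT : T (T v) = -v := by rw [← Module.End.mul_apply, D.T_sq, hτP v hvP]
      rw [← hl, map_smul, ← hl, smul_smul] at hTT
      have h1 : l * l = -1 := smul_left_injective (ZMod q) hv0 (hTT.trans (neg_one_smul (ZMod q) v).symm)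
      exact (ZMod.exists_sq_eq_neg_one_iff (p := q)).mp ⟨l, h1.symm⟩ hq4
    have hspan : Submodule.span (ZMod q) (Set.range ![v, T v]) ≤ P := by
      rw [Submodule.span_le]; rintro _ ⟨i, rfl⟩; fin_cases i <;> assumption
    have heq := Submodule.eq_of_le_of_finrank_le hspan (by
      rw [finrank_span_eq_card hli, Fintype.card_fin]; exact D.dim)
    rw [← heq, Submodule.span_le]
    rintro _ ⟨i, rfl⟩
    fin_cases i
    · exact hvS
    · exact hST v hvS
  -- invariant subspaces fixed by `τ` are fixed by the group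
  have hfixed : ∀ S : Submodule (ZMod q) U, (∀ a, ∀ v ∈ S, π a v ∈ S) → (∀ v ∈ S, τ v = v) →
      ∀ a, ∀ v ∈ S, π a v = v := by
    intro S hSA hSτ
    have key : ∀ a : A, τ * π a = π a⁻¹ * τ → ∀ v ∈ S, π a v = v := fun a ha v hv => by
      have h1 := LinearMap.congr_fun ha v
      rw [Module.End.mul_apply, Module.End.mul_apply, hSτ v hv, hSτ _ (hSA a v hv)] at h1
      have h2' : π a (π a v) = v := by rw [h1, ← hmulv, mul_inv_cancel, map_one, Module.End.one_apply]
      obtain ⟨k, hk⟩ := hodd.of_dvd_nat (orderOf_dvd_natCard a)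
      have hit : ∀ j : ℕ, π (a ^ (2 * j)) v = v := by
        intro j
        induction j with
        | zero => simp
        | succ j ih => rw [mul_add, mul_one, pow_add, hmulv, pow_two, hmulv, h2', ih]
      have h3 : π (a ^ orderOf a) v = v := by rw [pow_orderOf_eq_one, map_one, Module.End.one_apply]
      rwa [hk, pow_succ', hmulv, hit] at h3
    intro a
    have ha : a ∈ Subgroup.closure ({e, f} : Set A) := D.gen ▸ Subgroup.mem_top a
    induction ha using Subgroup.closure_induction with
    | mem x hx =>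
      rcases hx with rfl | hx
      · exact key _ D.inv
      · rw [Set.mem_singleton_iff] at hx; subst hx; exact key _ D.inv_f
    | one => intro v _; simp
    | mul x y _ _ hx hy => intro v hv; rw [hmulv, hy v hv, hx v hv]
    | inv x _ hx =>
      intro v hv
      conv_lhs => rw [← hx v hv, ← hmulv, inv_mul_cancel, map_one, Module.End.one_apply]
  let Fix : Submodule (ZMod q) U :=
    { carrier := {v | v ∈ X ∧ ∀ a, π a v = v}
      zero_mem' := ⟨zero_mem _, fun a => map_zero _⟩
      add_mem' := fun {v w} hv hw => ⟨add_mem hv.1 hw.1, fun a => by rw [map_add, hv.2, hw.2]⟩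
      smul_mem' := fun c {v} hv => ⟨Submodule.smul_mem _ c hv.1, fun a => by rw [map_smul, hv.2]⟩ }
  let S2 : Submodule (ZMod q) U :=
    { carrier := {v | v ∈ X ∧ ∀ a, π a v - v ∈ Fix}
      zero_mem' := ⟨zero_mem _, fun a => by rw [map_zero, sub_zero]; exact zero_mem _⟩
      add_mem' := fun {v w} hv hw => ⟨add_mem hv.1 hw.1, fun a => by
        rw [map_add, add_sub_add_comm]; exact add_mem (hv.2 a) (hw.2 a)⟩
      smul_mem' := fun c {v} hv => ⟨Submodule.smul_mem _ c hv.1, fun a => by
        rw [map_smul, ← smul_sub]; exact Submodule.smul_mem _ c (hv.2 a)⟩ }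
  have hinvX : ∀ M : Module.End (ZMod q) U, (∀ v, M v - v ∈ X) → ∀ v ∈ X, M v ∈ X := fun M hM v hv => by
    have := X.add_mem (hM v) hv; rwa [sub_add_cancel] at this
  have hπX : ∀ a, ∀ v ∈ X, π a v ∈ X := fun a => hinvX _ (hXsmall a)
  have hTX : ∀ v ∈ X, T v ∈ X := hinvX T fun v => Submodule.mem_sup_left (hTP v)
  have hτX : ∀ v ∈ X, τ v ∈ X := hinvX τ fun v => Submodule.mem_sup_left ⟨v, rfl⟩
  have hMfix : ∀ M : Module.End (ZMod q) U, (∀ v ∈ X, M v ∈ X) → (∀ a, ∃ b, M * π a = π b * M) →
      (∀ b, ∃ a, M * π a = π b * M) → (∀ v ∈ Fix, M v ∈ Fix) ∧ ∀ v ∈ S2, M v ∈ S2 := by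
    intro M hMX _ hsur
    have h1 : ∀ v ∈ Fix, M v ∈ Fix := fun v hv => ⟨hMX v hv.1, fun b => by
      obtain ⟨a, ha⟩ := hsur b
      rw [← Module.End.mul_apply, ← ha, Module.End.mul_apply, hv.2]⟩
    refine ⟨h1, fun v hv => ⟨hMX v hv.1, fun b => ?_⟩⟩
    obtain ⟨a, ha⟩ := hsur b
    rw [← Module.End.mul_apply, ← ha, Module.End.mul_apply, ← map_sub]
    exact h1 _ (hv.2 a)
  have hτsur : ∀ b, ∃ a, τ * π a = π b * τ := fun b => by
    obtain ⟨a, ha⟩ := D.tau_mem b
    refine ⟨a, ?_⟩
    calc τ * π a = τ * (π a * τ) * τ := by rw [mul_assoc τ, mul_assoc (π a), D.tau_sq, mul_one]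
      _ = π b * τ := by rw [← ha, ← mul_assoc, D.tau_sq, one_mul]
  have hTsur : ∀ b, ∃ a, T * π a = π b * T := fun b => by
    obtain ⟨a1, h1⟩ := D.T_mem b
    obtain ⟨a2, h2'⟩ := D.T_mem a1
    obtain ⟨a3, h3⟩ := D.T_mem a2
    refine ⟨a3, ?_⟩
    have h4 : T * T * (T * T) = 1 := by rw [D.T_sq, D.tau_sq]
    have e1 : T * T * T * π b = π a3 * (T * T * T) := by
      rw [mul_assoc (T * T), h1, ← mul_assoc, mul_assoc T T, h2', ← mul_assoc, h3]
      simp only [mul_assoc]
    calc T * π a3 = T * (π a3 * (T * T * T)) * T := by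
          rw [mul_assoc T, mul_assoc (π a3), mul_assoc (T * T), h4, mul_one]
      _ = π b * T := by rw [← e1, ← mul_assoc T, ← mul_assoc T, ← mul_assoc T T, mul_assoc (T * T) T T, h4, one_mul]
  obtain ⟨hFτ, hS2τ⟩ := hMfix τ hτX D.tau_mem hτsur
  obtain ⟨hFT, hS2T⟩ := hMfix T hTX D.T_mem hTsur
  have hFA : ∀ a, ∀ v ∈ Fix, π a v ∈ Fix := fun a v hv => by rw [hv.2 a]; exact hv
  -- the group acts trivially on `X / Fix`
  have hgoal : ∀ a, ∀ v ∈ X, π a v - v ∈ Fix := by
    by_cases hXle : X ≤ Fix
    · exact fun a v hv => by rw [(hXle hv).2 a, sub_self]; exact zero_mem _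
    rcases hdich Fix hFT hFτ with hPF | hFC
    · have hXF : X ≤ Fix := sup_le hPF (by
        rintro _ ⟨p, hp, rfl⟩
        rw [(hPF hp).2 h]; exact hPF hp)
      exact fun a v hv => by rw [(hXF hv).2 a, sub_self]; exact zero_mem _
    · rcases hdich S2 hS2T hS2τ with hPS | hSC
      · have hXS : X ≤ S2 := sup_le hPS (by
          rintro _ ⟨p, hp, rfl⟩
          have h1 := hPS hp
          have h2' : π h p = (π h p - p) + p := (sub_add_cancel _ _).symm
          rw [h2']
          exact add_mem (show π h p - p ∈ S2 from ⟨(h1.2 h).1, fun a => by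
            rw [(h1.2 h).2 a, sub_self]; exact zero_mem _⟩) h1)
        exact fun a v hv => (hXS hv).2 a
      · exfalso
        have hS2A : ∀ a, ∀ v ∈ S2, π a v ∈ S2 := fun a v hv => by
          rw [← sub_add_cancel (π a v) v]
          exact add_mem (show π a v - v ∈ S2 from ⟨(hv.2 a).1, fun b => by
            rw [(hv.2 a).2 b, sub_self]; exact zero_mem _⟩) hv
        have hS2F : ∀ v ∈ S2, v ∈ Fix := fun v hv => ⟨hv.1, fun a => hfixed S2 hS2A hSC a v hv⟩
        let C := X ⧸ (Fix.comap X.subtype)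
        letI : MulAction A C :=
          { smul := fun a => Submodule.mapQ _ _ ((π a).restrict (hπX a)) (show Fix.comap X.subtype ≤ (Fix.comap X.subtype).comap ((π a).restrict (hπX a)) from fun x hx => hFA a (x : U) hx)
            one_smul := fun c => by
              obtain ⟨x, rfl⟩ := Submodule.Quotient.mk_surjective _ c
              exact congrArg Submodule.Quotient.mk (Subtype.ext (by simp))
            mul_smul := fun a b c => by
              obtain ⟨x, rfl⟩ := Submodule.Quotient.mk_surjective _ c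
              exact congrArg Submodule.Quotient.mk (Subtype.ext (hmulv a b (x : U))) }
        have hCne : ∃ c : C, c ≠ 0 := by
          by_contra hno
          push Not at hno
          exact hXle fun x hx => (Submodule.Quotient.mk_eq_zero (Fix.comap X.subtype) (x := ⟨x, hx⟩)).mp (hno _)
        obtain ⟨c₀, hc₀⟩ := hCne
        haveI : Finite C := Finite.of_surjective _ (Submodule.Quotient.mk_surjective _)
        have hcard : q ∣ Nat.card C := by
          rw [Module.natCard_eq_pow_finrank (K := ZMod q), Nat.card_zmod]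
          refine dvd_pow_self q fun h0 => hc₀ ?_
          haveI := Module.finrank_zero_iff.mp h0
          exact Subsingleton.elim _ _
        obtain ⟨c, hc, hc0⟩ := hA.exists_fixed_point_of_prime_dvd_card_of_fixed_point C hcard (a := (0 : C))
          (fun a => map_zero _)
        obtain ⟨x, rfl⟩ := Submodule.Quotient.mk_surjective _ c
        refine hc0 (((Submodule.Quotient.mk_eq_zero _).mpr ?_).symm)
        exact hS2F (x : U) ⟨x.2, fun a => (Submodule.Quotient.eq (Fix.comap X.subtype) (x := (π a).restrict (hπX a) x) (y := x)).mp (hc a)⟩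
  intro a
  refine LinearMap.ext fun v => ?_
  rw [Module.End.mul_apply, LinearMap.sub_apply, LinearMap.sub_apply, Module.End.one_apply, Module.End.one_apply,
    LinearMap.zero_apply, sub_eq_zero]
  set x := π a v - v
  have hx : x ∈ X := hXsmall a v
  have hb : ∀ b, ∀ y ∈ X, ∃ d ∈ Fix, π b y = y + d := fun b y hy =>
    ⟨_, hgoal b y hy, (add_sub_cancel y (π b y)).symm⟩
  obtain ⟨d1, hd1, e1⟩ := hb f⁻¹ x hx
  obtain ⟨d2, hd2, e2⟩ := hb e⁻¹ _ (hπX f⁻¹ x hx)
  obtain ⟨d3, hd3, e3⟩ := hb f _ (hπX e⁻¹ _ (hπX f⁻¹ x hx))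
  obtain ⟨d4, hd4, e4⟩ := hb e _ (hπX f _ (hπX e⁻¹ _ (hπX f⁻¹ x hx)))
  have i1 : π f (π e⁻¹ (π f⁻¹ x)) = x + d2 := by
    rw [e2, map_add, hd2.2, ← hmulv, mul_inv_cancel, map_one, Module.End.one_apply]
  have i2 : π e (π e⁻¹ x) = x := by rw [← hmulv, mul_inv_cancel, map_one, Module.End.one_apply]
  rw [commutatorElement_def, hmulv, hmulv, hmulv, i1, map_add, hd2.2]
  obtain ⟨d5, hd5, e5⟩ := hb e x hx
  rw [e5]
  have h6 : π e⁻¹ x = x - d5 := by
    have := congrArg (π e⁻¹) e5
    rw [← hmulv, inv_mul_cancel, map_one, Module.End.one_apply, map_add, hd5.2] at this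
    rw [eq_sub_iff_add_eq]; exact this.symm
  have h7 : π e⁻¹ (π f⁻¹ x) = x - d5 + d1 := by rw [e1, map_add, hd1.2, h6]
  rw [e2, e1] at h7
  have : d2 = -d5 := by linear_combination (norm := module) h7
  rw [this]; abel

end Cfsg.Agent.KnownA.GrossLength
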