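/-
Gross's bound on the 2-length: the commutator of an inverted element with its translate, on one eigenspace
of the centre of a class two normal `q`-subgroup.
-/
import Cfsg.Agent.KnownA.GrossLength.Component
import Cfsg.Agent.KnownA.GrossLength.Linear
import Cfsg.Agent.Core.HallHigman.TwoLayer
import Cfsg.Agent.Chars.GrossTwoCore

set_option autoImplicit false
set_option linter.style.haveILetI false
set_option linter.unusedSectionVars false
set_option maxSynthPendingDepth 4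

namespace Cfsg.Agent.KnownA.GrossLength

open Module Cfsg.Agent.Core
open scoped commutatorElement TensorProduct

universe u v

/-- Every 2-element has order dividing `2^(n+2)` and exceptional degree. -/
def Deg {K : Type*} [Field K] {M : Type*} [AddCommGroup M] [Module K M] {H : Type*} [Group H]
    (ρ : H →* Module.End K M) (n : ℕ) : Prop :=
  ∀ u : H, (∃ k, u ^ 2 ^ k = 1) → u ^ 2 ^ (n + 2) = 1 ∧ (ρ u - 1) ^ (2 ^ (n + 2) - 1) = 0

variable {K : Type u} [Field K] [IsAlgClosed K] [CharP K 2] {M : Type v} [AddCommGroup M] [Module K M]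
  [FiniteDimensional K M] {H : Type*} [Group H] [Finite H] {ρ : H →* Module.End K M}

/-- The half power centralises an abelian normalised `q`-group. -/
theorem centralizes_abelian (hρ : Function.Injective ρ) {n : ℕ} (hdeg : Deg ρ n) {q : ℕ} [hq : Fact q.Prime]
    (hq2 : q ≠ 2) (x : H) (hx : ∃ k, x ^ 2 ^ k = 1) (N : Subgroup H) (hN : IsPGroup q N)
    (hxN : x ∈ Subgroup.normalizer (N : Set H)) (hab : ∀ a ∈ N, ∀ b ∈ N, a * b = b * a) :
    x ^ 2 ^ (n + 1) ∈ Subgroup.centralizer (N : Set H) := by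
  haveI : Fact (Nat.Prime 2) := ⟨Nat.prime_two⟩
  obtain ⟨hx1, hk⟩ := hdeg x hx
  by_contra hy
  obtain ⟨S, σ, hSN, hσ, hσn, hfix, hgen, hyS⟩ :=
    HH.exists_minimal_sub (p := 2) (n := n + 2) (Ne.symm hq2) x hx1 (by omega) N hN hxN hy
  have hSne : ∃ s : S, (ρ.comp S.subtype) s ≠ 1 := by
    by_contra hall
    push Not at hall
    refine hyS (Subgroup.mem_centralizer_iff.mpr fun s hs => ?_)
    have h1 : ρ s = ρ 1 := by rw [map_one]; exact hall ⟨s, hs⟩
    rw [hρ h1, one_mul, mul_one]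
  rcases HH.degree_cases (hN.to_le hSN) (Ne.symm hq2) (ρ.comp S.subtype) hSne (ρ x) σ (n := n + 2) (by omega)
    (by rw [← map_pow, hx1, map_one]) (fun s => by
      simp only [MonoidHom.comp_apply, Subgroup.coe_subtype, hσ, ← map_mul]; group) hσn hfix hgen _ hk with h' | h'
  · have := Nat.sub_lt (pow_pos (show 0 < 2 by norm_num) (n + 2)) one_pos
    omega
  · obtain ⟨a, m, han, hm, hpm, ⟨s, t, hst⟩, -⟩ := h'
    exact hst (Subtype.ext (hab s (hSN s.2) t (hSN t.2)))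

/-- `x` pairs trivially with `Q` on `W`. -/
def InRad (ρ : H →* Module.End K M) (Q : Subgroup H) (W : Submodule K M) (x : H) : Prop :=
  ∀ x' ∈ Q, ∀ w ∈ W, ρ ⁅x, x'⁆ w = w

set_option maxHeartbeats 8000000 in
/-- The facts on one eigenspace. -/
theorem section_main (hρ : Function.Injective ρ) {n : ℕ} (hdeg : Deg ρ n) {q : ℕ} [hq : Fact q.Prime]
    (hq2 : q ≠ 2) {Q D : Subgroup H} [hQn : Q.Normal] [hDn : D.Normal] (hQ : IsPGroup q Q) (hDQ : D ≤ Q)
    (hDc : ∀ d ∈ D, ∀ x ∈ Q, d * x = x * d) (hsq : ∀ x ∈ Q, x ^ q ∈ D) (hcm : ∀ x ∈ Q, ∀ y ∈ Q, ⁅x, y⁆ ∈ D)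
    (g : H) (hg : ∃ k, g ^ 2 ^ k = 1) {q₂ : ℕ} [hq₂ : Fact q₂.Prime] (hq₂2 : q₂ ≠ 2)
    (e f : H) (hR : IsPGroup q₂ (Subgroup.closure ({e, f} : Set H)))
    (he : g ^ 2 ^ (n + 1) * e * (g ^ 2 ^ (n + 1))⁻¹ = e⁻¹) (hf : f = g ^ 2 ^ n * e * (g ^ 2 ^ n)⁻¹)
    (φ : D → K) (hWne : HH.Quad.joint ρ D φ ≠ ⊥) :
    (q ≠ q₂ → ∀ x ∈ Q, InRad ρ Q (HH.Quad.joint ρ D φ) (⁅e, f⁆ * x * ⁅e, f⁆⁻¹ * x⁻¹)) ∧
    (q = q₂ → ∀ a ∈ Subgroup.closure ({e, f} : Set H), ∀ x ∈ Q,
      InRad ρ Q (HH.Quad.joint ρ D φ) (⁅e, f⁆ * (a * x * a⁻¹ * x⁻¹) * ⁅e, f⁆⁻¹ * (a * x * a⁻¹ * x⁻¹)⁻¹)) := by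
  classical
  haveI : Fact (Nat.Prime 2) := ⟨Nat.prime_two⟩
  set W := HH.Quad.joint ρ D φ with hW
  set St := HH.Quad.stab ρ W with hSt
  set R0 := Subgroup.closure ({e, f} : Set H) with hR0
  have hDab : ∀ a ∈ D, ∀ b ∈ D, a * b = b * a := fun a ha b hb => hDc a ha b (hDQ hb)
  have hconjQ : ∀ (t : H), ∀ x ∈ Q, t * x * t⁻¹ ∈ Q := fun t x hx => hQn.conj_mem x hx t
  have hWc : ∀ x : H, (∀ d ∈ D, d * x = x * d) → x ∈ St := fun x hx v hv => by
    rw [hW, HH.Quad.mem_joint] at hv ⊢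
    intro d
    rw [← Module.End.mul_apply, ← map_mul, hx d d.2, map_mul, Module.End.mul_apply, hv d, map_smul]
  have hQW : Q ≤ St := fun x hx => hWc x fun d hd => hDc d hd x hx
  have hpowSt : ∀ u : H, (∃ k, u ^ 2 ^ k = 1) → ∀ d ∈ D, d * u ^ 2 ^ (n + 1) = u ^ 2 ^ (n + 1) * d := fun u hu =>
    Subgroup.mem_centralizer_iff.mp (centralizes_abelian hρ hdeg hq2 u hu D (hQ.to_le hDQ)
      (by rw [Subgroup.normalizer_eq_top]; trivial) hDab)
  obtain ⟨hg1, hgk⟩ := hdeg g hg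
  set y := g ^ 2 ^ (n + 1) with hy
  set t := g ^ 2 ^ n with ht
  have hy2 : y * y = 1 := by rw [hy, ← pow_add, ← two_mul, ← pow_succ', hg1]
  have htt : t * t = y := by rw [hy, ht, ← pow_add, ← two_mul, ← pow_succ']
  have hyinv : y⁻¹ = y := inv_eq_of_mul_eq_one_right hy2
  have hfinv : y * f * y⁻¹ = f⁻¹ := by
    have hc : t * y = y * t := (Commute.pow_pow_self g (2 ^ n) (2 ^ (n + 1))).eq
    calc y * f * y⁻¹ = (y * t) * e * (y * t)⁻¹ := by rw [hf]; group
      _ = t * (y * e * y⁻¹) * t⁻¹ := by rw [← hc]; group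
      _ = f⁻¹ := by rw [he, hf]; group
  -- `e` and `f` stabilise the eigenspace
  have hStR : R0 ≤ St := by
    rw [hR0, Subgroup.closure_le]
    intro a ha
    have hainv : y * a * y⁻¹ = a⁻¹ := by
      rcases ha with rfl | ha
      · exact he
      · rw [Set.mem_singleton_iff] at ha; subst ha; exact hfinv
    have haR : a ∈ R0 := Subgroup.subset_closure ha
    have hodd : Odd (orderOf a) := by
      obtain ⟨j, hj⟩ := hR ⟨a, haR⟩
      obtain ⟨i, -, hi⟩ := (Nat.dvd_prime_pow hq₂.out).mp (orderOf_dvd_of_pow_eq_one (congrArg Subtype.val hj))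
      rw [hi]; exact (hq₂.out.odd_of_ne_two hq₂2).pow
    obtain ⟨m, hm⟩ := hodd
    have hyc : a * y * a⁻¹ = (a * g * a⁻¹) ^ 2 ^ (n + 1) := by rw [conj_pow, hy]
    have hy' : a * y * a⁻¹ * y ∈ St := hWc _ fun d hd => by
      obtain ⟨k, hk⟩ := hg
      have h1 := hpowSt (a * g * a⁻¹) ⟨k, by rw [conj_pow, hk, mul_one, mul_inv_cancel]⟩ d hd
      rw [← hyc] at h1
      rw [← mul_assoc, h1, mul_assoc, hpowSt g ⟨k, hk⟩ d hd, ← mul_assoc]
    have hsqr : a * y * a⁻¹ * y = a ^ 2 := by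
      have h3 : y * a⁻¹ * y = a := by
        conv_lhs => rw [← hainv, hyinv]
        rw [← mul_assoc, ← mul_assoc, hy2, one_mul, mul_assoc, hy2, mul_one]
      rw [mul_assoc, mul_assoc, ← mul_assoc y, h3, pow_two]
    rw [hsqr] at hy'
    have h2 := St.pow_mem hy' (m + 1)
    rw [← pow_mul, show 2 * (m + 1) = orderOf a + 1 by omega, pow_succ, pow_orderOf_eq_one, one_mul] at h2
    exact h2
  have hyD : ∀ d ∈ D, d * y = y * d := hpowSt g hg
  have hySt : y ∈ St := hWc y hyD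
  set c := ⁅e, f⁆ with hc
  have hcR : c ∈ R0 := by
    rw [hc, commutatorElement_def]
    exact mul_mem (mul_mem (mul_mem (Subgroup.subset_closure (Or.inl rfl)) (Subgroup.subset_closure (Or.inr rfl)))
      (inv_mem (Subgroup.subset_closure (Or.inl rfl)))) (inv_mem (Subgroup.subset_closure (Or.inr rfl)))
  -- the pairing
  have hcom : ∀ a b x : Q, ⁅a, b⁆ * x = x * ⁅a, b⁆ := fun a b x => Subtype.ext
    (hDc _ (hcm a a.2 b b.2) x x.2)
  have hbimul : ∀ a b c : Q, ⁅a * b, c⁆ = ⁅a, c⁆ * ⁅b, c⁆ := fun a b c => by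
    calc ⁅a * b, c⁆ = a * ⁅b, c⁆ * a⁻¹ * ⁅a, c⁆ := by simp only [commutatorElement_def]; group
      _ = ⁅a, c⁆ * ⁅b, c⁆ := by rw [← hcom b c a, mul_inv_cancel_right, hcom b c]
  have hbimul' : ∀ a b c : Q, ⁅a, b * c⁆ = ⁅a, b⁆ * ⁅a, c⁆ := fun a b c => by
    calc ⁅a, b * c⁆ = ⁅a, b⁆ * (b * ⁅a, c⁆ * b⁻¹) := by simp only [commutatorElement_def]; group
      _ = ⁅a, b⁆ * ⁅a, c⁆ := by rw [← hcom a c b, mul_inv_cancel_right]
  have hpowL : ∀ (a b : Q) (j : ℕ), ⁅a ^ j, b⁆ = ⁅a, b⁆ ^ j := fun a b j => by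
    induction j with
    | zero => simp
    | succ j ih => rw [pow_succ, hbimul, ih, pow_succ]
  have hpowR : ∀ (a b : Q) (j : ℕ), ⁅a, b ^ j⁆ = ⁅a, b⁆ ^ j := fun a b j => by
    induction j with
    | zero => simp
    | succ j ih => rw [pow_succ, hbimul', ih, pow_succ]
  have hcval : ∀ a b : Q, (((⁅a, b⁆ : Q)) : H) = ⁅(a : H), (b : H)⁆ := fun a b => by simp [commutatorElement_def]
  let pair : Q → Q → K := fun a b => φ ⟨⁅(a : H), (b : H)⁆, hcm a a.2 b b.2⟩
  have hpair : ∀ a b : Q, ∀ w ∈ W, ρ ⁅(a : H), (b : H)⁆ w = pair a b • w := fun a b w hw =>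
    HH.Quad.mem_joint.mp hw ⟨_, hcm a a.2 b b.2⟩
  obtain ⟨w₀, hw₀, hw₀ne⟩ := Submodule.exists_mem_ne_zero_of_ne_bot hWne
  have hpair1 : ∀ a b : Q, ∀ w ∈ W, w ≠ 0 → ρ ⁅(a : H), (b : H)⁆ w = w → ∀ v ∈ W, ρ ⁅(a : H), (b : H)⁆ v = v :=
    fun a b w hw hwne h v hv => by
      rw [hpair a b w hw] at h
      rw [hpair a b v hv, smul_left_injective K hwne (h.trans (one_smul K w).symm), one_smul]
  let Zs : Subgroup Q :=
    { carrier := {x | ∀ x' : Q, ∀ w ∈ W, ρ ⁅(x : H), (x' : H)⁆ w = w}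
      one_mem' := fun x' w _ => by simp
      mul_mem' := fun {a b} ha hb x' w hw => by
        rw [← hcval, hbimul, Subgroup.coe_mul, map_mul, Module.End.mul_apply, hcval, hcval, hb x' w hw, ha x' w hw]
      inv_mem' := fun {a} ha x' w hw => by
        have h1 : ⁅a⁻¹, x'⁆ * ⁅a, x'⁆ = 1 := by rw [← hbimul, inv_mul_cancel, commutatorElement_one_left]
        conv_lhs => rw [← ha x' w hw, ← Module.End.mul_apply, ← map_mul, ← hcval, ← hcval, ← Subgroup.coe_mul, h1,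
          Subgroup.coe_one, map_one, Module.End.one_apply] }
  have hInRad : ∀ x : Q, x ∈ Zs → InRad ρ Q W (x : H) := fun x hx x' hx' w hw => hx ⟨x', hx'⟩ w hw
  have hDZs : ∀ x : Q, (x : H) ∈ D → x ∈ Zs := fun x hx x' w _ => by
    rw [commutatorElement_eq_one_iff_mul_comm.mpr (hDc _ hx x' x'.2), map_one, Module.End.one_apply]
  haveI hZn : Zs.Normal := ⟨fun z hz a => by
    have h : ⁅a, z⁆ ∈ Zs := hDZs _ (by rw [hcval]; exact hcm a a.2 z z.2)
    have := Zs.mul_mem h hz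
    rwa [commutatorElement_def, inv_mul_cancel_right] at this⟩
  let mk : Q →* Q ⧸ Zs := QuotientGroup.mk' Zs
  have hmk1 : ∀ x : Q, mk x = 1 ↔ x ∈ Zs := fun x => QuotientGroup.eq_one_iff x
  letI : CommGroup (Q ⧸ Zs) := { (inferInstance : Group (Q ⧸ Zs)) with
    mul_comm := fun a b => by
      obtain ⟨a, rfl⟩ := QuotientGroup.mk_surjective a
      obtain ⟨b, rfl⟩ := QuotientGroup.mk_surjective b
      refine commutatorElement_eq_one_iff_mul_comm.mp ?_
      show ⁅mk a, mk b⁆ = 1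
      rw [← map_commutatorElement, hmk1]
      exact hDZs _ (by rw [hcval]; exact hcm a a.2 b b.2) }
  haveI : Module (ZMod q) (Additive (Q ⧸ Zs)) := AddCommGroup.zmodModule (fun a => by
    obtain ⟨x, hx⟩ := QuotientGroup.mk_surjective (Additive.toMul a)
    apply Additive.toMul.injective
    rw [toMul_nsmul, toMul_zero, ← hx]
    show mk x ^ q = 1
    rw [← map_pow, hmk1]
    exact hDZs _ (by rw [Subgroup.coe_pow]; exact hsq x x.2))
  let mkA : Q → Additive (Q ⧸ Zs) := fun x => Additive.ofMul (mk x)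
  have hmkA : ∀ v, ∃ x : Q, mkA x = v := fun v => by
    obtain ⟨x, hx⟩ := QuotientGroup.mk_surjective (Additive.toMul v)
    exact ⟨x, by show Additive.ofMul (mk x) = v; rw [show mk x = Additive.toMul v from hx, ofMul_toMul]⟩
  have hmkadd : ∀ a b : Q, mkA (a * b) = mkA a + mkA b := fun a b => by simp [mkA]
  have hmk0 : ∀ x : Q, mkA x = 0 ↔ x ∈ Zs := fun x => by
    show Additive.ofMul (mk x) = 0 ↔ _
    rw [ofMul_eq_zero, hmk1]
  have hmksub : ∀ a b : Q, mkA a - mkA b = mkA (a * b⁻¹) := fun a b => by simp [mkA, sub_eq_add_neg]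
  let cj : St →* MulAut Q := (MulAut.conjNormal (H := Q)).comp St.subtype
  have hcj : ∀ (u : St) (x : Q), ((cj u x : Q) : H) = u * x * (u : H)⁻¹ := fun u x => by simp [cj]
  have hconjpair : ∀ u : St, ∀ a b : Q, ∀ w ∈ W, ρ ⁅((cj u a : Q) : H), ((cj u b : Q) : H)⁆ w = pair a b • w := by
    intro u a b w hw
    have hw' : ρ (u : H)⁻¹ w ∈ W := (St.inv_mem u.2) w hw
    rw [hcj, hcj, show ⁅(u : H) * a * (u : H)⁻¹, (u : H) * b * (u : H)⁻¹⁆ = u * ⁅(a : H), (b : H)⁆ * (u : H)⁻¹ by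
      simp only [commutatorElement_def]; group, map_mul, map_mul, Module.End.mul_apply, Module.End.mul_apply,
      hpair a b _ hw', map_smul, ← Module.End.mul_apply, ← map_mul, mul_inv_cancel, map_one, Module.End.one_apply]
  have hZinv : ∀ (u : St) (x : Q), x ∈ Zs → cj u x ∈ Zs := fun u x hx x' w hw => by
    rw [show x' = cj u ((cj u).symm x') from ((cj u).apply_symm_apply x').symm, hconjpair u _ _ w hw,
      ← hpair x _ w hw]
    exact hx _ w hw
  let fa : St → (Additive (Q ⧸ Zs) →+ Additive (Q ⧸ Zs)) := fun u =>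
    MonoidHom.toAdditive (QuotientGroup.map Zs Zs (cj u).toMonoidHom (fun x hx => hZinv u x hx))
  let Λ : St →* Module.End (ZMod q) (Additive (Q ⧸ Zs)) :=
    { toFun := fun u => (fa u).toZModLinearMap q
      map_one' := LinearMap.ext fun v => by
        obtain ⟨x, rfl⟩ := hmkA v
        show Additive.ofMul (mk (cj 1 x)) = _
        rw [map_one]; rfl
      map_mul' := fun s u => LinearMap.ext fun v => by
        obtain ⟨x, rfl⟩ := hmkA v
        show Additive.ofMul (mk (cj (s * u) x)) = Additive.ofMul (mk (cj s (cj u x)))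
        rw [map_mul]; rfl }
  have hΛ : ∀ (u : St) (x : Q), Λ u (mkA x) = mkA (cj u x) := fun u x => rfl
  have hrad : ∀ (u : St) (x : H) (hx : x ∈ Q), Λ u (mkA ⟨x, hx⟩) = mkA ⟨x, hx⟩ →
      InRad ρ Q W ((u : H) * x * (u : H)⁻¹ * x⁻¹) := fun u x hx h => by
    rw [hΛ, ← sub_eq_zero, hmksub, hmk0] at h
    have := hInRad _ h
    rwa [Subgroup.coe_mul, Subgroup.coe_inv, hcj] at this
  let incl : R0 →* St := Subgroup.inclusion hStR
  let π : R0 →* Module.End (ZMod q) (Additive (Q ⧸ Zs)) := Λ.comp incl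
  haveI : Finite (Additive (Q ⧸ Zs)) := (inferInstance : Finite (Q ⧸ Zs))
  let eR : R0 := ⟨e, Subgroup.subset_closure (Or.inl rfl)⟩
  let fR : R0 := ⟨f, Subgroup.subset_closure (Or.inr rfl)⟩
  have hgenR : Subgroup.closure ({eR, fR} : Set R0) = ⊤ := by
    refine Subgroup.map_injective R0.subtype_injective ?_
    rw [MonoidHom.map_closure, ← MonoidHom.range_eq_map, Subgroup.range_subtype, Set.image_pair]
    rfl
  let yS : St := ⟨y, hySt⟩
  set τ := Λ yS with hτ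
  have hτ2 : τ * τ = 1 := by rw [hτ, ← map_mul, show yS * yS = 1 from Subtype.ext hy2, map_one]
  have hinvΛ : τ * π eR = π eR⁻¹ * τ := by
    show Λ yS * Λ (incl eR) = Λ (incl eR⁻¹) * Λ yS
    rw [← map_mul, ← map_mul]
    refine congrArg Λ (Subtype.ext ?_)
    show y * e = e⁻¹ * y
    exact mul_inv_eq_iff_eq_mul.mp he
  have hinvΛf : τ * π fR = π fR⁻¹ * τ := by
    show Λ yS * Λ (incl fR) = Λ (incl fR⁻¹) * Λ yS
    rw [← map_mul, ← map_mul]
    refine congrArg Λ (Subtype.ext ?_)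
    show y * f = f⁻¹ * y
    exact mul_inv_eq_iff_eq_mul.mp hfinv
  suffices hkey : (q ≠ q₂ → π ⁅eR, fR⁆ = 1) ∧ (q = q₂ → ∀ a, (π ⁅eR, fR⁆ - 1) * (π a - 1) = 0) by
    refine ⟨fun hne x hx => ?_, fun heq a ha x hx => ?_⟩
    · have h := LinearMap.congr_fun (hkey.1 hne) (mkA ⟨x, hx⟩)
      exact hrad (incl ⁅eR, fR⁆) x hx h
    · have hr : a * x * a⁻¹ * x⁻¹ ∈ Q := Q.mul_mem (hconjQ a x hx) (Q.inv_mem hx)
      refine hrad (incl ⁅eR, fR⁆) _ hr ?_
      have h := LinearMap.congr_fun (hkey.2 heq ⟨a, ha⟩) (mkA ⟨x, hx⟩)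
      rw [Module.End.mul_apply, LinearMap.sub_apply, LinearMap.sub_apply, Module.End.one_apply, Module.End.one_apply,
        LinearMap.zero_apply, sub_eq_zero] at h
      have e1 : π ⟨a, ha⟩ (mkA ⟨x, hx⟩) - mkA ⟨x, hx⟩ = mkA ⟨_, hr⟩ := by
        show Λ (incl ⟨a, ha⟩) _ - _ = _
        rw [hΛ, hmksub]
        refine congrArg mkA (Subtype.ext ?_)
        rw [Subgroup.coe_mul, hcj, Subgroup.coe_inv]
        rfl
      rw [e1] at h
      exact h
  by_cases hτ1 : τ = 1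
  · -- trivial case
    have hsq1 : ∀ a : R0, τ * π a = π a⁻¹ * τ → π a = 1 := fun a ha => by
      rw [hτ1, one_mul, mul_one] at ha
      obtain ⟨m, hm⟩ : Odd (orderOf a) := by
        obtain ⟨j, hj⟩ := hR a
        obtain ⟨i, -, hi⟩ := (Nat.dvd_prime_pow hq₂.out).mp (orderOf_dvd_of_pow_eq_one hj)
        rw [hi]; exact (hq₂.out.odd_of_ne_two hq₂2).pow
      have h2 : π (a ^ 2) = 1 := by rw [pow_two, map_mul]; nth_rewrite 2 [ha]; rw [← map_mul, mul_inv_cancel, map_one]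
      calc π a = π ((a ^ 2) ^ (m + 1)) := by
            rw [← pow_mul, show 2 * (m + 1) = orderOf a + 1 by omega, pow_succ, pow_orderOf_eq_one, one_mul]
        _ = 1 := by rw [map_pow, h2, one_pow]
    have hc1 : π ⁅eR, fR⁆ = 1 := by
      have h1 : ∀ a : R0, π a = 1 → π a⁻¹ = 1 := fun a ha => by
        have := (PlaneData.pi_inv π a).1
        rwa [ha, one_mul] at this
      rw [commutatorElement_def, map_mul, map_mul, map_mul, hsq1 eR hinvΛ, hsq1 fR hinvΛf, h1 _ (hsq1 eR hinvΛ),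
        h1 _ (hsq1 fR hinvΛf), one_mul, one_mul, one_mul]
    exact ⟨fun _ => hc1, fun _ a => by rw [hc1, sub_self, zero_mul]⟩
  -- the exceptional power
  have hy' : g ^ 2 ^ (n + 1) ∈ St := hySt
  have hex : ∃ a, g ^ 2 ^ a ∈ St := ⟨n + 1, hy'⟩
  have ha0 : Nat.find hex ≤ n + 1 := Nat.find_min' hex hy'
  set a₀ := Nat.find hex with ha₀def
  set n₀ := n + 2 - a₀ with hn₀
  have hT0mem : g ^ 2 ^ a₀ ∈ St := Nat.find_spec hex
  set T0 : St := ⟨g ^ 2 ^ a₀, hT0mem⟩ with hT0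
  have hT0deg : (HH.Quad.res ρ W T0 - 1) ^ (2 ^ n₀ - 1) = 0 := by
    set d := 2 ^ a₀ with hd
    set P := 2 ^ n₀ with hP
    have hdP : d * P = 2 ^ (n + 2) := by rw [hd, hP, ← pow_add, show a₀ + n₀ = n + 2 by omega]
    rw [HH.sub_one_pow_eq_geom_sum (K := K)]
    refine LinearMap.ext fun w => Subtype.ext ?_
    simp only [LinearMap.sum_apply, AddSubmonoidClass.coe_finsetSum, ← map_pow, HH.Quad.coe_res, SubgroupClass.coe_pow,
      LinearMap.zero_apply, ZeroMemClass.coe_zero, hT0]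
    set S := ∑ k ∈ Finset.range P, ρ ((g ^ d) ^ k) (w : M) with hSdef
    have hSW : S ∈ W := W.sum_mem fun k _ => (HH.Quad.stab ρ W).pow_mem hT0mem k _ w.2
    have h0 := LinearMap.congr_fun hgk (w : M)
    rw [HH.sub_one_pow_eq_geom_sum (K := K), ← hdP, LinearMap.sum_apply, HH.TwoLayer.sum_range_mul, Finset.sum_comm,
      LinearMap.zero_apply] at h0
    have h0' : ∑ i ∈ Finset.range d, ρ (g ^ i) S = 0 := by
      rw [← h0]
      refine Finset.sum_congr rfl fun i _ => ?_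
      rw [hSdef, map_sum]
      refine Finset.sum_congr rfl fun k _ => ?_
      rw [← map_pow ρ g, ← Module.End.mul_apply, ← map_mul, ← pow_mul, ← pow_add, add_comm]
    have hconjD : ∀ i (z : D), (g ^ i)⁻¹ * (z : H) * g ^ i ∈ D := fun i z => by
      simpa using hDn.conj_mem z z.2 (g ^ i)⁻¹
    let φi : ℕ → D → K := fun i z => φ ⟨_, hconjD i z⟩
    have hmemi : ∀ i, ∀ v ∈ W, ρ (g ^ i) v ∈ HH.Quad.joint ρ D (φi i) := fun i v hv => by
      rw [hW, HH.Quad.mem_joint] at hv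
      rw [HH.Quad.mem_joint]
      intro z
      have h := hv ⟨_, hconjD i z⟩
      rw [← Module.End.mul_apply, ← map_mul,
        show (z : H) * g ^ i = g ^ i * ((g ^ i)⁻¹ * (z : H) * g ^ i) by group, map_mul, Module.End.mul_apply]
      exact (congrArg (ρ (g ^ i)) h).trans (map_smul _ _ _)
    have hstabW : ∀ k, φi k = φ → g ^ k ∈ St := fun k hk v hv => by
      have := hmemi k v hv
      rwa [hk] at this
    have hdist : ∀ i, i < d → 0 < i → φi i ≠ φ := fun i hid hi0 he' => by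
      have hmem : g ^ i ∈ St := hstabW i he'
      by_cases hne : g ^ i = 1
      · obtain ⟨j, -, hj⟩ := (Nat.dvd_prime_pow Nat.prime_two).mp (orderOf_dvd_of_pow_eq_one hg1)
        have hdvd := orderOf_dvd_of_pow_eq_one hne
        rw [hj] at hdvd
        have hja : j < a₀ := (Nat.pow_lt_pow_iff_right (by norm_num : 1 < 2)).mp
          (lt_of_le_of_lt (Nat.le_of_dvd hi0 hdvd) hid)
        refine Nat.find_min hex hja ?_
        rw [← hj, pow_orderOf_eq_one]
        exact one_mem _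
      · obtain ⟨j, -, hjmem, hjdvd⟩ := HH.TwoLayer.mem_zpowers_pow (p := 2) g (n := n + 1) hg1 hne
        have hja : j < a₀ := (Nat.pow_lt_pow_iff_right (by norm_num : 1 < 2)).mp
          (lt_of_le_of_lt (Nat.le_of_dvd hi0 hjdvd) hid)
        exact Nat.find_min hex hja ((Subgroup.zpowers_le.mpr hmem) hjmem)
    have hdpos : 0 < d := by positivity
    rw [Finset.range_eq_Ico, Finset.sum_eq_sum_Ico_succ_bot hdpos, pow_zero, map_one, Module.End.one_apply] at h0'
    have hS0 : S ∈ (⨆ ψ ∈ ({ψ | ∃ i, 0 < i ∧ i < d ∧ ψ = φi i} : Set (D → K)), HH.Quad.joint ρ D ψ) := by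
      rw [eq_neg_of_add_eq_zero_left h0']
      refine neg_mem (Submodule.sum_mem _ fun i hi => ?_)
      rw [Finset.mem_Ico] at hi
      exact Submodule.mem_iSup_of_mem (φi i) (Submodule.mem_iSup_of_mem ⟨i, by omega, hi.2, rfl⟩ (hmemi i S hSW))
    have hdisj := (HH.Quad.joint_indep ρ D fun a ha b hb => by rw [hDab a ha b hb]).disjoint_biSup (x := φ)
      (y := {ψ | ∃ i, 0 < i ∧ i < d ∧ ψ = φi i}) (fun ⟨i, hi0, hid, he'⟩ => hdist i hid hi0 he'.symm)
    exact (Submodule.mem_bot K).mp (hdisj.eq_bot ▸ ⟨hSW, hS0⟩)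
  -- the moved subgroup
  have hn₀pos : 0 < n₀ := by omega
  let σ : MulAut Q := cj T0
  have hσpow : ∀ j : ℕ, σ ^ j = cj (T0 ^ j) := fun j => (map_pow cj T0 j).symm
  have hT0y : T0 ^ 2 ^ (n₀ - 1) = yS := Subtype.ext (by
    show (g ^ 2 ^ a₀) ^ 2 ^ (n₀ - 1) = y
    rw [← pow_mul, ← pow_add, show a₀ + (n₀ - 1) = n + 1 by omega])
  have hT0one : T0 ^ 2 ^ n₀ = 1 := Subtype.ext (by
    show (g ^ 2 ^ a₀) ^ 2 ^ n₀ = 1
    rw [← pow_mul, ← pow_add, show a₀ + n₀ = n + 2 by omega, hg1])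
  set τQ : MulAut Q := cj yS with hτQdef
  have hστ : σ ^ 2 ^ (n₀ - 1) = τQ := by rw [hσpow, hT0y]
  have hτQ2 : ∀ x, τQ (τQ x) = x := fun x => by
    rw [hτQdef, ← MulAut.mul_apply, ← map_mul, show yS * yS = 1 from Subtype.ext hy2, map_one, MulAut.one_apply]
  have hτcomm : ∀ a b : Q, τQ ⁅a, b⁆ = ⁅a, b⁆ := fun a b => Subtype.ext (by
    rw [hτQdef, hcj, hcval]
    show y * ⁅(a : H), (b : H)⁆ * y⁻¹ = _
    rw [← hyD _ (hcm a a.2 b b.2), mul_inv_cancel_right])
  have hoddQ : Odd (Nat.card Q) := by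
    obtain ⟨k, hk⟩ := IsPGroup.iff_card.mp hQ
    rw [hk]; exact (hq.out.odd_of_ne_two hq2).pow
  set P1 := Chars.GrossTwo.movedSubgroup τQ with hP1
  have hdecP : ∀ x : Q, ∃ u ∈ P1, τQ u = u⁻¹ ∧ τQ (u⁻¹ * x) = u⁻¹ * x :=
    Chars.GrossTwo.exists_decomp hoddQ hτQ2
  have hIC : ∀ u c' : Q, τQ u = u⁻¹ → τQ c' = c' → ⁅u, c'⁆ = 1 := by
    intro u c' hu hc'
    have h := hτcomm u c'
    rw [map_commutatorElement, hu, hc'] at h
    have h1 : ⁅u⁻¹, c'⁆ * ⁅u, c'⁆ = 1 := by rw [← hbimul, inv_mul_cancel, commutatorElement_one_left]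
    rw [h] at h1
    refine orderOf_eq_one_iff.mp (Nat.eq_one_of_dvd_coprimes (Nat.coprime_two_left.mpr hoddQ)
      (orderOf_dvd_of_pow_eq_one (by rw [pow_two]; exact h1)) (orderOf_dvd_natCard _))
  have hP1C : ∀ x ∈ P1, ∀ c', τQ c' = c' → ⁅x, c'⁆ = 1 := fun x hx c' hc' => by
    induction hx using Subgroup.closure_induction with
    | mem x hx =>
      obtain ⟨z, rfl⟩ := hx
      exact hIC _ c' (Chars.GrossTwo.tau_moved hτQ2 z) hc'
    | one => exact commutatorElement_one_left c'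
    | mul x z _ _ h1 h2 => rw [hbimul, h1, h2, one_mul]
    | inv x _ h1 =>
      have : ⁅x⁻¹, c'⁆ * ⁅x, c'⁆ = 1 := by rw [← hbimul, inv_mul_cancel, commutatorElement_one_left]
      rwa [h1, mul_one] at this
  have hσcomm : σ * τQ = τQ * σ := by
    show cj T0 * cj yS = cj yS * cj T0
    rw [← map_mul, ← map_mul]
    refine congrArg cj (Subtype.ext ?_)
    exact (Commute.pow_pow_self g _ _).eq
  have hP1σ : P1.map σ.toMonoidHom = P1 := ThompsonFPF.map_eq_of_le (by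
    rw [hP1, Chars.GrossTwo.movedSubgroup, MonoidHom.map_closure, Subgroup.closure_le]
    rintro _ ⟨_, ⟨x, rfl⟩, rfl⟩
    refine Subgroup.subset_closure ⟨σ x, ?_⟩
    show τQ (σ x) * (σ x)⁻¹ = σ (τQ x * x⁻¹)
    rw [map_mul, map_inv, ← MulAut.mul_apply, ← hσcomm, MulAut.mul_apply])
  let σ1 : MulAut P1 := ThompsonFPF.restrict σ P1 hP1σ
  have hσ1 : ∀ (j : ℕ) (x : P1), (((σ1 ^ j) x : P1) : Q) = (σ ^ j) (x : Q) := fun j x => HH.coe_pow_restrict σ hP1σ j x
  have hfix1 : ∀ a b : P1, (σ1 ^ 2 ^ (n₀ - 1)) ⁅a, b⁆ = ⁅a, b⁆ := fun a b => Subtype.ext (by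
    rw [hσ1, hστ]; exact hτcomm (a : Q) (b : Q))
  have hgen1 : Subgroup.closure (Set.range fun x => (σ1 ^ 2 ^ (n₀ - 1)) x * x⁻¹) = ⊤ := by
    refine Subgroup.map_injective P1.subtype_injective ?_
    rw [MonoidHom.map_closure, ← MonoidHom.range_eq_map, Subgroup.range_subtype]
    refine le_antisymm (Subgroup.closure_le _ |>.mpr ?_) ?_
    · rintro _ ⟨x, -, rfl⟩; exact x.2
    · conv_lhs => rw [hP1, Chars.GrossTwo.movedSubgroup]
      rw [Subgroup.closure_le]
      rintro _ ⟨z, rfl⟩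
      obtain ⟨u, hu, -, hc'⟩ := hdecP z
      refine Subgroup.subset_closure ⟨(σ1 ^ 2 ^ (n₀ - 1)) ⟨u, hu⟩ * ⟨u, hu⟩⁻¹, ⟨_, rfl⟩, ?_⟩
      show (((σ1 ^ 2 ^ (n₀ - 1)) ⟨u, hu⟩ : P1) : Q) * u⁻¹ = τQ z * z⁻¹
      rw [hσ1, hστ]
      have : τQ z = τQ u * (u⁻¹ * z) := by rw [← hc', ← map_mul, mul_inv_cancel_left]
      rw [this]; group
  let ρQ : Q →* Module.End K W := (HH.Quad.res ρ W).comp (Subgroup.inclusion hQW)
  let ρ1 : P1 →* Module.End K W := ρQ.comp P1.subtype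
  have hρQ : ∀ (x : Q) (w : W), (ρQ x w : M) = ρ (x : H) w := fun x w => HH.Quad.coe_res ρ W _ w
  have hmoved : ¬ ∀ x ∈ P1, x ∈ Zs := by
    intro hall
    refine hτ1 (LinearMap.ext fun v => ?_)
    obtain ⟨x, rfl⟩ := hmkA v
    rw [hτ, hΛ, Module.End.one_apply, ← sub_eq_zero, hmksub, hmk0]
    exact hall _ (Subgroup.subset_closure ⟨x, rfl⟩)
  have hnt1 : ∃ x, ρ1 x ≠ 1 := by
    by_contra hno
    push Not at hno
    refine hmoved fun x hx x' w hw => ?_
    have hx1 : ∀ v ∈ W, ρ (x : H) v = v := fun v hv =>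
      congrArg Subtype.val (LinearMap.congr_fun (hno ⟨x, hx⟩) ⟨v, hv⟩)
    have hxi : ∀ v ∈ W, ρ (x : H)⁻¹ v = v := fun v hv => by
      conv_lhs => rw [← hx1 v hv, ← Module.End.mul_apply, ← map_mul, inv_mul_cancel, map_one, Module.End.one_apply]
    rw [commutatorElement_def, map_mul, map_mul, map_mul, Module.End.mul_apply, Module.End.mul_apply,
      Module.End.mul_apply, hxi _ ((hQW (Q.inv_mem x'.2)) w hw), hx1 _ ?_, ← Module.End.mul_apply, ← map_mul,
      mul_inv_cancel, map_one, Module.End.one_apply]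
    exact (hQW x'.2) _ ((hQW (Q.inv_mem x'.2)) w hw)
  have hqK : (q : K) ≠ 0 := fun h => hq2
    ((Nat.prime_dvd_prime_iff_eq Nat.prime_two hq.out).mp ((CharP.cast_eq_zero_iff K 2 q).mp h)).symm
  obtain ⟨W1, a, N, e', han, hW1ne, hW1X, hW1inv, -, -, hN2, hNP, hNe, hcard, hY⟩ :=
    exists_component2 (hQ.to_subgroup P1) hqK ρ1 hnt1 (HH.Quad.res ρ W T0) σ1 (Ne.symm hq2) hn₀pos
      (by rw [← map_pow, hT0one, map_one])
      (fun x => by
        show HH.Quad.res ρ W T0 * HH.Quad.res ρ W _ = HH.Quad.res ρ W _ * HH.Quad.res ρ W T0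
        rw [← map_mul, ← map_mul]
        refine congrArg _ (Subtype.ext ?_)
        show g ^ 2 ^ a₀ * ((x : Q) : H) = (((σ1 x : P1) : Q) : H) * g ^ 2 ^ a₀
        rw [ThompsonFPF.coe_restrict, hcj]
        show _ = g ^ 2 ^ a₀ * ((x : Q) : H) * (g ^ 2 ^ a₀)⁻¹ * g ^ 2 ^ a₀
        group)
      (MulEquiv.ext fun x => Subtype.ext (by rw [hσ1, hσpow, hT0one, map_one]; rfl))
      hfix1 hgen1 hT0deg
  obtain ⟨j, hj, hNq⟩ := (Nat.dvd_prime_pow hq.out).mp (hNe ▸ dvd_pow_self N two_ne_zero : N ∣ q ^ e')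
  have hq3 : 3 ≤ q := by have := hq.out.two_le; omega
  have hj0 : 0 < j := Nat.pos_of_ne_zero fun h => by rw [h, pow_zero] at hNq; omega
  obtain rfl : j = 1 := Chars.GrossTwo.eq_one_of_pow_add_one_two_pow hq3 (hq.out.odd_of_ne_two hq2) hj0 (hNq ▸ hNP)
  rw [pow_one] at hNq
  subst hNq
  have hk2 : 2 ≤ n₀ - a := by
    by_contra hlt
    have := Nat.pow_le_pow_right (show 0 < 2 by norm_num) (show n₀ - a ≤ 1 by omega)
    omega
  have hq4 : N % 4 = 3 := by
    have : 2 ^ 2 ∣ N + 1 := hNP ▸ pow_dvd_pow 2 hk2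
    omega
  have htSt : t ∈ St := by
    have := St.pow_mem hT0mem (2 ^ a * 2 ^ (n - a₀ - a))
    rwa [← pow_mul, ← pow_add, ← pow_add, show a₀ + (a + (n - a₀ - a)) = n by omega] at this
  let tS : St := ⟨t, htSt⟩
  set T := Λ tS with hT
  have hTT : T * T = τ := by rw [hT, ← map_mul]; exact congrArg Λ (Subtype.ext htt)
  obtain ⟨w₁, hw₁, hw₁ne⟩ := Submodule.exists_mem_ne_zero_of_ne_bot hW1ne
  have hw₁M : (w₁ : M) ≠ 0 := fun h => hw₁ne (Subtype.ext h)
  have hρ1v : ∀ (x : Q) (hx : x ∈ P1), ∀ v : W, (ρ1 ⟨x, hx⟩ v : M) = ρ (x : H) v := fun x hx v => hρQ x v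
  -- fixed elements are centralised by `t` modulo the radical
  have hfixT : ∀ c' : Q, τQ c' = c' → cj tS c' * c'⁻¹ ∈ Zs := by
    intro c' hc'
    have hcomm1 : ∀ d : Q, τQ d = d → ∀ x : P1, ρQ d * ρ1 x = ρ1 x * ρQ d := fun d hd x => by
      show ρQ d * ρQ x = ρQ x * ρQ d
      rw [← map_mul, ← map_mul]
      exact congrArg ρQ (commutatorElement_eq_one_iff_mul_comm.mp (hP1C x x.2 d hd)).symm
    obtain ⟨hcW, hcX⟩ := hY (ρQ c') (hcomm1 c' hc')
    set X1 := (HH.Quad.res ρ W T0) ^ 2 ^ a with hX1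
    have hcpow : ∀ i : ℕ, ∀ v ∈ W1, (X1 ^ i) v ∈ W1 ∧ ρQ c' ((X1 ^ i) v) = (X1 ^ i) (ρQ c' v) := by
      intro i
      induction i with
      | zero => intro v hv; simpa using hv
      | succ i ih =>
        intro v hv
        obtain ⟨h1, h2⟩ := ih v hv
        rw [pow_succ', Module.End.mul_apply]
        exact ⟨hW1X _ h1, by rw [hcX _ h1, h2, ← Module.End.mul_apply]⟩
    have hXt : X1 ^ 2 ^ (n - a₀ - a) = HH.Quad.res ρ W tS := by
      rw [hX1, ← pow_mul, ← map_pow]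
      refine congrArg _ (Subtype.ext ?_)
      show (g ^ 2 ^ a₀) ^ (2 ^ a * 2 ^ (n - a₀ - a)) = t
      rw [← pow_mul, ← pow_add, ← pow_add, show a₀ + (a + (n - a₀ - a)) = n by omega]
    -- on the component
    set t' := cj tS c' * c'⁻¹ with ht'
    have ht'W : ∀ v ∈ W1, ρ (t' : H) (v : M) = v := by
      intro v hv
      have hcv : ∃ v' ∈ W1, ρQ c' v' = v := by
        obtain ⟨⟨v', hv'⟩, hv''⟩ := LinearMap.injective_iff_surjective.mp
          (show Function.Injective ((ρQ c').restrict hcW) from (injective_iff_map_eq_zero _).mpr fun u hu =>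
            Subtype.ext (by
              have h := congrArg (ρQ c'⁻¹) (congrArg Subtype.val hu)
              rwa [LinearMap.coe_restrict_apply, ← Module.End.mul_apply, ← map_mul, inv_mul_cancel, map_one,
                Module.End.one_apply, ZeroMemClass.coe_zero, map_zero] at h)) ⟨v, hv⟩
        exact ⟨v', hv', congrArg Subtype.val hv''⟩
      obtain ⟨v', hv', hv''⟩ := hcv
      have hu1 := (hcpow (2 ^ (n - a₀ - a) * 3) v' hv').1
      rw [pow_mul, hXt] at hu1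
      set u := ((HH.Quad.res ρ W tS) ^ 3) v' with hu
      have h2 := (hcpow (2 ^ (n - a₀ - a)) u hu1).2
      rw [hXt] at h2
      have ht4 : t * t ^ 3 = 1 := by rw [← pow_succ', show t ^ (3 + 1) = (t * t) * (t * t) by simp only [pow_succ, pow_zero, one_mul, mul_assoc], htt, hy2]
      have htu : ρ t (u : M) = (v' : M) := by
        show ((HH.Quad.res ρ W tS) u : M) = _
        rw [hu, ← map_pow, ← Module.End.mul_apply, ← map_mul, show tS * tS ^ 3 = 1 from Subtype.ext ht4, map_one,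
          Module.End.one_apply]
      have h3 : ρ (c' : H) (ρ t (u : M)) = ρ t (ρ (c' : H) (u : M)) := congrArg Subtype.val h2
      have hv3 : ρ (c' : H) (v' : M) = (v : M) := congrArg Subtype.val hv''
      rw [ht', Subgroup.coe_mul, Subgroup.coe_inv, hcj]
      show ρ (t * (c' : H) * t⁻¹ * (c' : H)⁻¹) (v : M) = v
      rw [← hv3, ← Module.End.mul_apply, ← map_mul, inv_mul_cancel_right, ← htu, ← Module.End.mul_apply, ← map_mul,
        inv_mul_cancel_right, h3, map_mul, Module.End.mul_apply]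
    have ht'fix : τQ t' = t' := by
      rw [ht', map_mul, map_inv, hc', hτQdef, ← MulAut.mul_apply, ← map_mul]
      rw [show yS * tS = tS * yS from Subtype.ext (Commute.pow_pow_self g _ _).eq, map_mul, MulAut.mul_apply, ← hτQdef, hc']
    intro x'
    obtain ⟨u, hu, -, huc⟩ := hdecP x'
    set d := u⁻¹ * x' with hd
    have hx' : x' = u * d := by rw [hd, mul_inv_cancel_left]
    have h0 : ⁅t', u⁆ = 1 := by
      rw [← commutatorElement_inv, hP1C u hu t' ht'fix, inv_one]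
    have hval : (⁅(t' : H), (x' : H)⁆) = ⁅(t' : H), (d : H)⁆ := by
      rw [← hcval, ← hcval, hx', hbimul', h0, one_mul]
    intro w hw
    rw [hval]
    refine hpair1 t' d (w₁ : M) w₁.2 hw₁M ?_ w hw
    obtain ⟨hdW, -⟩ := hY (ρQ d) (hcomm1 d huc)
    have hdiW : ∀ v ∈ W1, ρ (d : H)⁻¹ (v : M) ∈ (W1.map W.subtype) := fun v hv => by
      refine ⟨ρQ d⁻¹ v, (hY (ρQ d⁻¹) (hcomm1 d⁻¹ (by rw [map_inv, huc]))).1 v hv, ?_⟩
      rw [Submodule.coe_subtype, hρQ, Subgroup.coe_inv]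
    have ht'W' : ∀ v ∈ W1.map W.subtype, ρ (t' : H) v = v := by rintro _ ⟨v, hv, rfl⟩; exact ht'W v hv
    have ht'i : ∀ v ∈ W1.map W.subtype, ρ (t' : H)⁻¹ v = v := fun v hv => by
      conv_lhs => rw [← ht'W' v hv, ← Module.End.mul_apply, ← map_mul, inv_mul_cancel, map_one, Module.End.one_apply]
    have hdW' : ∀ v ∈ W1.map W.subtype, ρ (d : H) v ∈ W1.map W.subtype := by
      rintro _ ⟨v, hv, rfl⟩; exact ⟨_, hdW v hv, hρQ d v⟩
    rw [commutatorElement_def, map_mul, map_mul, map_mul, Module.End.mul_apply, Module.End.mul_apply,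
      Module.End.mul_apply, ht'i _ (hdiW w₁ hw₁), ← Module.End.mul_apply (ρ (d : H)), ← map_mul, mul_inv_cancel,
      map_one, Module.End.one_apply, ht'W w₁ hw₁]
  -- elements acting on the component by scalars are radical
  have hscalZs : ∀ r : P1, (∃ z : K, ∀ v ∈ W1, ρ1 r v = z • v) → (r : Q) ∈ Zs := by
    rintro ⟨r, hr⟩ ⟨z, hz⟩ x'
    obtain ⟨u, hu, -, huc⟩ := hdecP x'
    have hval : ⁅(r : H), (x' : H)⁆ = ⁅(r : H), (u : H)⁆ := by
      rw [← hcval, ← hcval, show x' = u * (u⁻¹ * x') by rw [mul_inv_cancel_left], hbimul', hP1C r hr _ huc, mul_one]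
    intro w hw
    rw [hval]
    refine hpair1 r u (w₁ : M) w₁.2 hw₁M ?_ w hw
    have hcomm2 : ∀ v ∈ W1, ρ1 ⟨r, hr⟩ (ρ1 ⟨u, hu⟩ v) = ρ1 ⟨u, hu⟩ (ρ1 ⟨r, hr⟩ v) := fun v hv => by
      rw [hz _ (hW1inv _ v hv), hz v hv, map_smul]
    set v0 := ρ1 ⟨u, hu⟩⁻¹ (ρ1 ⟨r, hr⟩⁻¹ w₁) with hv0
    have h1 : ρ1 ⁅(⟨r, hr⟩ : P1), (⟨u, hu⟩ : P1)⁆ w₁ = w₁ := by
      rw [commutatorElement_def, map_mul, map_mul, map_mul, Module.End.mul_apply, Module.End.mul_apply,
        Module.End.mul_apply]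
      have hmem : ρ1 ⟨r, hr⟩⁻¹ (ρ1 ⟨u, hu⟩⁻¹ w₁) ∈ W1 := hW1inv _ _ (hW1inv _ _ hw₁)
      rw [hcomm2 _ hmem, ← Module.End.mul_apply (ρ1 ⟨r, hr⟩), ← map_mul, mul_inv_cancel, map_one, Module.End.one_apply,
        ← Module.End.mul_apply, ← map_mul, mul_inv_cancel, map_one, Module.End.one_apply]
    have h2 := congrArg Subtype.val h1
    rw [hρ1v _ (⁅(⟨r, hr⟩ : P1), (⟨u, hu⟩ : P1)⁆).2] at h2
    simpa [commutatorElement_def] using h2
  have h2F : (2 : ZMod N) ≠ 0 := by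
    rw [show (2 : ZMod N) = ((2 : ℕ) : ZMod N) by norm_num, Ne, ZMod.natCast_eq_zero_iff]
    exact fun h => hq2 ((Nat.prime_dvd_prime_iff_eq hq.out Nat.prime_two).mp h)
  set P := LinearMap.range (τ - 1) with hP
  have hPmem : ∀ x : Q, x ∈ P1 → mkA x ∈ P := by
    intro x hx
    induction hx using Subgroup.closure_induction with
    | mem x hx =>
      obtain ⟨z, rfl⟩ := hx
      exact ⟨mkA z, by rw [LinearMap.sub_apply, Module.End.one_apply, hτ, hΛ, hmksub]⟩
    | one => rw [(hmk0 1).mpr (one_mem _)]; exact zero_mem _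
    | mul x z _ _ h1 h2 => rw [hmkadd]; exact add_mem h1 h2
    | inv x _ h1 => rw [show mkA x⁻¹ = -mkA x by simp [mkA]]; exact neg_mem h1
  have hPeq : ∀ v ∈ P, ∃ x ∈ P1, mkA x = v := by
    rintro _ ⟨v, rfl⟩
    obtain ⟨z, rfl⟩ := hmkA v
    exact ⟨_, Subgroup.subset_closure ⟨z, rfl⟩, by rw [LinearMap.sub_apply, Module.End.one_apply, hτ, hΛ, hmksub]⟩
  have hdim : finrank (ZMod N) P ≤ 2 := by
    let fh : P1 →* Q ⧸ Zs := mk.comp P1.subtype
    have h1 : Nat.card {x : P1 // ∃ z : K, ∀ v ∈ W1, ρ1 x v = z • v} ≤ Nat.card fh.ker :=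
      Nat.card_le_card_of_injective (fun x => ⟨x.1, (hmk1 _).mpr (hscalZs x.1 x.2)⟩)
        (fun x z h => Subtype.ext (congrArg (fun t : fh.ker => (t : P1)) h))
    have h2 : fh.ker.index ≤ N ^ 2 := by
      have h3 := fh.ker.card_mul_index
      rw [← hcard] at h3
      haveI : Nonempty {x : P1 // ∃ z : K, ∀ v ∈ W1, ρ1 x v = z • v} := ⟨⟨1, 1, fun v _ => by simp⟩⟩
      by_contra hlt
      rw [not_le] at hlt
      have := Nat.mul_lt_mul_of_le_of_lt h1 hlt Nat.card_pos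
      omega
    have h3 : Nat.card P = fh.ker.index := by
      rw [Subgroup.index_ker]
      refine Nat.card_congr (Equiv.subtypeEquiv Additive.toMul fun v => ?_)
      rw [MonoidHom.mem_range]
      refine ⟨fun hv => ?_, fun ⟨x, hx⟩ => ?_⟩
      · obtain ⟨x, hx, rfl⟩ := hPeq v hv
        exact ⟨⟨x, hx⟩, rfl⟩
      · have := hPmem x x.2
        rwa [show mkA (x : Q) = v from Additive.toMul.injective hx] at this
    haveI : Module.Finite (ZMod N) (Additive (Q ⧸ Zs)) := Module.Finite.of_finite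
    rw [Module.natCard_eq_pow_finrank (K := ZMod N), Nat.card_zmod] at h3
    exact (Nat.pow_le_pow_iff_right hq.out.one_lt).mp (h3 ▸ h2)
  have hsmall : ∃ Y : Module.End (ZMod N) (Additive (Q ⧸ Zs)), T - 1 = (τ - 1) * Y := by
    have hmemP : ∀ v, T v - v ∈ P := by
      intro v
      obtain ⟨x, rfl⟩ := hmkA v
      obtain ⟨u, hu, -, huc⟩ := hdecP x
      set d := u⁻¹ * x with hd
      have htu : cj tS u ∈ P1 := by
        rw [hP1, Chars.GrossTwo.movedSubgroup] at hu ⊢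
        have hle : (Subgroup.closure (Set.range fun z => τQ z * z⁻¹)).map (cj tS).toMonoidHom ≤
            Subgroup.closure (Set.range fun z => τQ z * z⁻¹) := by
          rw [MonoidHom.map_closure, Subgroup.closure_le]
          rintro _ ⟨_, ⟨z, rfl⟩, rfl⟩
          refine Subgroup.subset_closure ⟨cj tS z, ?_⟩
          show τQ (cj tS z) * (cj tS z)⁻¹ = cj tS (τQ z * z⁻¹)
          rw [map_mul, map_inv, hτQdef, ← MulAut.mul_apply, ← MulAut.mul_apply, ← map_mul, ← map_mul,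
            show yS * tS = tS * yS from Subtype.ext (Commute.pow_pow_self g _ _).eq]
        exact hle ⟨u, hu, rfl⟩
      have hdz : mkA (cj tS d) = mkA d := by
        rw [← sub_eq_zero, hmksub, hmk0]; exact hfixT d huc
      rw [hT, hΛ, show x = u * d by rw [hd, mul_inv_cancel_left], map_mul, hmkadd, hmkadd, hdz,
        add_sub_add_right_eq_sub]
      exact P.sub_mem (hPmem _ htu) (hPmem u hu)
    have hneg : ∀ v ∈ P, τ v = -v := by
      rintro _ ⟨z, rfl⟩
      rw [LinearMap.sub_apply, Module.End.one_apply, map_sub, ← Module.End.mul_apply, hτ2, Module.End.one_apply,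
        neg_sub]
    refine ⟨(-(2 : ZMod N)⁻¹) • (T - 1), LinearMap.ext fun v => ?_⟩
    rw [Module.End.mul_apply, LinearMap.smul_apply, map_smul, LinearMap.sub_apply, Module.End.one_apply,
      LinearMap.sub_apply, Module.End.one_apply, hneg _ (hmemP v),
      show -(T v - v) - (T v - v) = (-(2 : ZMod N)) • (T v - v) by module, smul_smul, neg_mul_neg,
      inv_mul_cancel₀ h2F, one_smul]
  have hconj : T * π eR = π fR * T := by
    show Λ tS * Λ (incl eR) = Λ (incl fR) * Λ tS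
    rw [← map_mul, ← map_mul]
    refine congrArg Λ (Subtype.ext ?_)
    show t * e = f * t
    rw [hf, inv_mul_cancel_right]
  have D' : PlaneData π τ T eR fR := ⟨hτ2, hTT, hsmall, hgenR, hinvΛ, hconj, hdim⟩
  have hiso : ∀ (z : R0) (ω : ZMod N), (∀ v ∈ P, π z v = ω • v) → ω * ω = 1 := by
    intro z ω hω
    obtain ⟨x, hx, u, hu, hne1⟩ : ∃ x ∈ P1, ∃ u ∈ P1, ρ ⁅((x : Q) : H), ((u : Q) : H)⁆ w₀ ≠ w₀ := by
      by_contra hno
      push Not at hno
      refine hmoved fun x hx x' w hw => ?_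
      obtain ⟨u, hu, -, huc⟩ := hdecP x'
      have hval : ⁅(x : H), (x' : H)⁆ = ⁅(x : H), (u : H)⁆ := by
        rw [← hcval, ← hcval, show x' = u * (u⁻¹ * x') by rw [mul_inv_cancel_left], hbimul', hP1C x hx _ huc, mul_one]
      rw [hval]
      exact hpair1 x u w₀ hw₀ hw₀ne (hno x hx u hu) w hw
    set k := ω.val
    have hrel : ∀ s ∈ P1, cj (incl z) s * (s ^ k)⁻¹ ∈ Zs := fun s hs => by
      rw [← hmk0, ← hmksub, sub_eq_zero]
      have h := hω _ (hPmem s hs)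
      rw [show π z (mkA s) = mkA (cj (incl z) s) from hΛ _ _] at h
      rw [h]
      show ω • Additive.ofMul (mk s) = Additive.ofMul (mk (s ^ k))
      rw [map_pow, ofMul_pow, ← Nat.cast_smul_eq_nsmul (ZMod N), ZMod.natCast_zmod_val]
    have hl : ∀ j : ℕ, ρ (((⁅x, u⁆ ^ j : Q)) : H) w₀ = pair x u ^ j • w₀ := by
      intro j
      induction j with
      | zero => simp
      | succ j ih =>
        rw [pow_succ, Subgroup.coe_mul, map_mul, Module.End.mul_apply, hcval, hpair x u w₀ hw₀, map_smul, ih,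
          smul_smul, pow_succ, mul_comm]
    set lam := pair x u
    have hkk : lam ^ (k * k) = lam ^ 1 := by
      refine smul_left_injective K hw₀ne ?_
      show lam ^ (k * k) • w₀ = lam ^ 1 • w₀
      rw [← hl (k * k), pow_one, ← hconjpair (incl z) x u w₀ hw₀]
      set A := cj (incl z) x
      set B := cj (incl z) u
      have hA : A = (A * (x ^ k)⁻¹) * x ^ k := by rw [inv_mul_cancel_right]
      have hB : B = (B * (u ^ k)⁻¹) * u ^ k := by rw [inv_mul_cancel_right]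
      have hz1 : ∀ r ∈ Zs, ∀ s : Q, ρ (((⁅r, s⁆ : Q)) : H) w₀ = w₀ ∧ ρ (((⁅s, r⁆ : Q)) : H) w₀ = w₀ := fun r hr s => by
        refine ⟨by rw [hcval]; exact hr s w₀ hw₀, ?_⟩
        rw [← commutatorElement_inv r s, Subgroup.coe_inv]
        conv_lhs => rw [show w₀ = ρ (((⁅r, s⁆ : Q)) : H) w₀ from (by rw [hcval]; exact (hr s w₀ hw₀).symm),
          ← Module.End.mul_apply, ← map_mul, inv_mul_cancel, map_one, Module.End.one_apply]
      rw [← hcval A B, show ⁅A, B⁆ = ⁅A * (x ^ k)⁻¹, B⁆ * ⁅x ^ k, B * (u ^ k)⁻¹⁆ * ⁅x ^ k, u ^ k⁆ by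
        rw [mul_assoc, ← hbimul', ← hB, ← hbimul, ← hA],
        show ⁅x ^ k, u ^ k⁆ = ⁅x, u⁆ ^ (k * k) by rw [hpowL, hpowR, ← pow_mul],
        Subgroup.coe_mul, Subgroup.coe_mul, map_mul, map_mul, Module.End.mul_apply, Module.End.mul_apply, hl,
        map_smul, (hz1 _ (hrel u hu) _).2, map_smul, (hz1 _ (hrel x hx) _).1]
    have hlam1 : lam ≠ 1 := fun h => hne1 (by
      have := hl 1
      rwa [pow_one, pow_one, h, one_smul, hcval] at this)
    have hlamN : lam ^ N = 1 := by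
      refine smul_left_injective K hw₀ne ?_
      show lam ^ N • w₀ = (1 : K) • w₀
      rw [← hl, ← hpowL, hcval, commutatorElement_eq_one_iff_mul_comm.mpr
        (hDc _ (by rw [Subgroup.coe_pow]; exact hsq x x.2) u u.2), map_one, Module.End.one_apply, one_smul]
    have hprim : IsPrimitiveRoot lam N := by
      rw [IsPrimitiveRoot.iff_orderOf, orderOf_eq_prime hlamN hlam1]
    obtain ⟨lu, hlu⟩ := hprim.isUnit hq.out.ne_zero
    have hmod : k * k ≡ 1 [MOD N] := by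
      have e1 : lu ^ (k * k) = lu ^ 1 := Units.ext (by push_cast; rw [hlu]; exact hkk)
      rw [pow_eq_pow_iff_modEq] at e1
      rwa [show orderOf lu = N by rw [← orderOf_units, hlu, orderOf_eq_prime hlamN hlam1]] at e1
    have := (ZMod.natCast_eq_natCast_iff _ _ N).mpr hmod
    rwa [Nat.cast_mul, Nat.cast_one, ZMod.natCast_zmod_val] at this
  refine ⟨fun hne => ?_, fun heq => ?_⟩
  · -- coprime characteristic: extend the scalars
    let F := AlgebraicClosure (ZMod N)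
    let U := Additive (Q ⧸ Zs)
    haveI : Module.Finite (ZMod N) U := Module.Finite.of_finite
    let ψ := Module.End.baseChangeHom (ZMod N) F U
    have hψ : Function.Injective ψ := fun a b hab => LinearMap.ext fun v => by
      refine Module.FaithfullyFlat.tensorProduct_mk_injective (A := ZMod N) (B := F) U ?_
      have h1 := LinearMap.congr_fun hab ((1 : F) ⊗ₜ[ZMod N] v)
      have ea : ∀ c : Module.End (ZMod N) U, ψ c ((1 : F) ⊗ₜ[ZMod N] v) = (1 : F) ⊗ₜ[ZMod N] c v := fun c =>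
        LinearMap.baseChange_tmul ..
      rw [ea, ea] at h1
      exact h1
    have hq2N : (q₂ : ZMod N) ≠ 0 := by
      rw [Ne, ZMod.natCast_eq_zero_iff]
      exact fun h => hne ((Nat.prime_dvd_prime_iff_eq hq.out hq₂.out).mp h)
    have hq2F : (q₂ : F) ≠ 0 := fun h => hq2N ((algebraMap (ZMod N) F).injective (by rw [map_natCast, h, map_zero]))
    let π' : R0 →* Module.End F (F ⊗[ZMod N] U) :=
      { toFun := fun a => ψ (π a)
        map_one' := by rw [map_one, map_one]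
        map_mul' := fun a b => by rw [map_mul, map_mul] }
    obtain ⟨Y, hY'⟩ := hsmall
    have hdim' : finrank F (LinearMap.range (ψ τ - 1)) ≤ 2 := by
      rw [← map_one ψ, ← map_sub]
      have e : (ψ (τ - 1) : (F ⊗[ZMod N] U) →ₗ[F] (F ⊗[ZMod N] U)) =
          (P.subtype.baseChange F) ∘ₗ (((τ - 1).codRestrict P (LinearMap.mem_range_self _)).baseChange F) := by
        rw [← LinearMap.baseChange_comp]; rfl
      rw [e]
      refine (Submodule.finrank_mono (LinearMap.range_comp_le_range _ _)).trans ((LinearMap.finrank_range_le _).trans ?_)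
      rw [Module.finrank_baseChange]
      exact hdim
    have D'' : PlaneData π' (ψ τ) (ψ T) eR fR :=
      ⟨by rw [← map_mul, hτ2, map_one], by rw [← map_mul, hTT], ⟨ψ Y, by rw [← map_one ψ, ← map_sub, ← map_sub, hY', map_mul]⟩,
        hgenR, by show ψ τ * ψ (π eR) = ψ (π eR⁻¹) * ψ τ; rw [← map_mul, ← map_mul, hinvΛ],
        by show ψ T * ψ (π eR) = ψ (π fR) * ψ T; rw [← map_mul, ← map_mul, hconj], hdim'⟩
    refine hψ ?_
    rw [map_one]
    refine commutator_eq_one_of_coprime hR hq₂2 hq2F D'' fun z ω hω => ?_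
    obtain ⟨v, hv⟩ : ∃ v, (τ - 1) v ≠ 0 := by
      by_contra hno
      push Not at hno
      exact hτ1 (sub_eq_zero.mp (LinearMap.ext hno))
    obtain ⟨fd, hfd⟩ := Module.Projective.exists_dual_eq_one (ZMod N) hv
    have hmem : ∀ v, (1 : F) ⊗ₜ[ZMod N] (τ - 1) v ∈ LinearMap.range (ψ τ - 1) := fun v => by
      refine ⟨(1 : F) ⊗ₜ[ZMod N] v, ?_⟩
      rw [← map_one ψ, ← map_sub]
      exact LinearMap.baseChange_tmul ..
    have heq1 : ∀ v, (1 : F) ⊗ₜ[ZMod N] π z ((τ - 1) v) = ω • ((1 : F) ⊗ₜ[ZMod N] (τ - 1) v) := fun v => by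
      rw [← hω _ (hmem v)]
      exact (LinearMap.baseChange_tmul ..).symm
    have hω' : ω = algebraMap (ZMod N) F (fd (π z ((τ - 1) v))) := by
      have h := congrArg (fun t => fd.baseChange F t) (heq1 v)
      simp only [map_smul, Module.Dual.baseChange_apply_tmul, hfd, one_smul,
        smul_eq_mul, mul_one] at h
      rw [← h, Algebra.algebraMap_eq_smul_one]
    set k := fd (π z ((τ - 1) v))
    rw [hω', ← map_mul, ← map_one (algebraMap (ZMod N) F)]
    refine congrArg _ (hiso z k fun p hp => ?_)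
    obtain ⟨v', rfl⟩ := hp
    refine Module.FaithfullyFlat.tensorProduct_mk_injective (A := ZMod N) (B := F) U ?_
    show (1 : F) ⊗ₜ[ZMod N] π z ((τ - 1) v') = (1 : F) ⊗ₜ[ZMod N] (k • (τ - 1) v')
    rw [heq1, hω', algebraMap_smul, TensorProduct.tmul_smul]
  · subst heq
    exact commutator_quadratic hR hq4 D'

end Cfsg.Agent.KnownA.GrossLength
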