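/-
Gross's bound on the 2-length: the commutator of an inverted element with its translate lies in `O_{2'}`.
-/
import Cfsg.Agent.KnownA.GrossLength.Section
import Cfsg.Agent.KnownA.GrossLength.Quadratic
import Cfsg.Agent.S0093
import Cfsg.Agent.S0044
import Cfsg.Agent.Core.Fitting

set_option autoImplicit false
set_option linter.style.haveILetI false
set_option linter.unusedSectionVars false
set_option maxSynthPendingDepth 4

namespace Cfsg.Agent.KnownA.GrossLength

open Module Cfsg Cfsg.Agent.Core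
open scoped commutatorElement

universe u v w

section group

variable {H : Type w} [Group H] [Finite H]

/-- An element acting trivially on `Q / D` and on `D` has a power centralising `Q`. -/
theorem pow_mem_centralizer_of_stab {q : ℕ} {Q D : Subgroup H} (hD : IsPGroup q D) {h : H}
    (hhD : ∀ d ∈ D, h * d = d * h) (hhQ : ∀ x ∈ Q, x⁻¹ * (h * x * h⁻¹) ∈ D) :
    ∃ i, h ^ q ^ i ∈ Subgroup.centralizer (Q : Set H) := by
  obtain ⟨i, hi⟩ : ∃ i, ∀ d ∈ D, d ^ q ^ i = 1 := by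
    classical
    choose k hk using fun d : D => hD d
    haveI : Fintype D := Fintype.ofFinite D
    refine ⟨∑ d, k d, fun d hd => ?_⟩
    obtain ⟨j, hj⟩ := Nat.exists_eq_add_of_le (Finset.single_le_sum (fun a _ => Nat.zero_le (k a))
      (Finset.mem_univ (⟨d, hd⟩ : D)))
    have h1 : d ^ q ^ k ⟨d, hd⟩ = 1 := congrArg Subtype.val (hk ⟨d, hd⟩)
    rw [hj, pow_add, pow_mul, h1, one_pow]
  refine ⟨i, Subgroup.mem_centralizer_iff.mpr fun x hx => ?_⟩
  set r := x⁻¹ * (h * x * h⁻¹) with hr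
  have hr' : h * x * h⁻¹ = x * r := by rw [hr, mul_inv_cancel_left]
  have hit : ∀ k : ℕ, h ^ k * x * (h ^ k)⁻¹ = x * r ^ k := by
    intro k
    induction k with
    | zero => simp
    | succ k ih =>
      calc h ^ (k + 1) * x * (h ^ (k + 1))⁻¹ = h * (h ^ k * x * (h ^ k)⁻¹) * h⁻¹ := by rw [pow_succ']; group
        _ = h * x * h⁻¹ * (h * r ^ k * h⁻¹) := by rw [ih]; group
        _ = x * r ^ (k + 1) := by
          rw [hr', hhD _ (D.pow_mem (hhQ x hx) k), mul_inv_cancel_right, mul_assoc, pow_succ']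
  have h1 := hit (q ^ i)
  rw [hi r (hhQ x hx), mul_one, mul_inv_eq_iff_eq_mul] at h1
  exact h1.symm

/-- An element acting trivially on the sections of a critical subgroup has a power centralising the whole group. -/
theorem pow_mem_centralizer_of_critical {q : ℕ} {P Q D : Subgroup H} [P.Normal] [Q.Normal] (hD : IsPGroup q D)
    (hPC : ∀ u ∈ P, (∀ x ∈ Q, u * x = x * u) → u ∈ D) {h : H}
    (hhD : ∀ d ∈ D, h * d = d * h) (hhQ : ∀ x ∈ Q, x⁻¹ * (h * x * h⁻¹) ∈ D) :
    ∃ i, h ^ q ^ i ∈ Subgroup.centralizer (P : Set H) := by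
  obtain ⟨i, hi⟩ := pow_mem_centralizer_of_stab hD hhD hhQ
  set k := h ^ q ^ i with hk
  have hkQ : ∀ x ∈ Q, x * k = k * x := Subgroup.mem_centralizer_iff.mp hi
  obtain ⟨j, hj⟩ := pow_mem_centralizer_of_stab (Q := P) hD (h := k)
    (fun d hd => by rw [hk]; exact (show Commute h d from hhD d hd).pow_left _) (fun u hu => by
      refine hPC _ (P.mul_mem (P.inv_mem hu) ((inferInstance : P.Normal).conj_mem u hu k)) fun x hx => ?_
      have hu' : k * (u * x * u⁻¹) = u * x * u⁻¹ * k :=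
        (hkQ _ ((inferInstance : Q.Normal).conj_mem x hx u)).symm
      have hx' : u⁻¹ * (k * u * k⁻¹) * x * (u⁻¹ * (k * u * k⁻¹))⁻¹ = x := by
        calc u⁻¹ * (k * u * k⁻¹) * x * (u⁻¹ * (k * u * k⁻¹))⁻¹
            = u⁻¹ * (k * u * (k⁻¹ * (x * k)) * u⁻¹ * k⁻¹) * u := by group
          _ = u⁻¹ * (k * (u * x * u⁻¹) * k⁻¹) * u := by rw [hkQ x hx]; group
          _ = x := by rw [hu']; group
      exact mul_inv_eq_iff_eq_mul.mp hx')
  exact ⟨i + j, by rwa [pow_add, pow_mul, ← hk]⟩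

end group

variable {K : Type u} [Field K] [IsAlgClosed K] [CharP K 2] {M : Type v} [AddCommGroup M] [Module K M]
  [FiniteDimensional K M] {H : Type w} [Group H] [Finite H] {ρ : H →* Module.End K M}

/-- The common eigenspaces of an abelian group of odd order span. -/
theorem iSup_joint_eq_top_odd {q : ℕ} [hq : Fact q.Prime] (hq2 : q ≠ 2) (ρ : H →* Module.End K M) (D : Subgroup H)
    (hD : IsPGroup q D) (hc : ∀ a ∈ D, ∀ b ∈ D, a * b = b * a) : ⨆ φ : D → K, HH.Quad.joint ρ D φ = ⊤ := by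
  have hss : ∀ d : D, (ρ (d : H)).IsSemisimple := by
    intro d
    obtain ⟨k, hk⟩ := hD d
    have hk' : (d : H) ^ q ^ k = 1 := congrArg Subtype.val hk
    refine Module.End.isSemisimple_of_squarefree_aeval_eq_zero (p := Polynomial.X ^ q ^ k - 1)
      (Polynomial.X_pow_sub_one_separable_iff.mpr ?_).squarefree
      (by rw [map_sub, map_one, Polynomial.aeval_X_pow, ← map_pow, hk', map_one, sub_self])
    rw [Nat.cast_pow]
    exact pow_ne_zero _ fun h => hq2
      ((Nat.prime_dvd_prime_iff_eq Nat.prime_two hq.out).mp ((CharP.cast_eq_zero_iff K 2 q).mp h)).symm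
  have h := Module.End.iSup_iInf_maxGenEigenspace_eq_top_of_forall_mapsTo (fun d : D => ρ (d : H))
    (fun a b μ => Module.End.mapsTo_maxGenEigenspace_of_comm
      (show Commute (ρ (b : H)) (ρ (a : H)) from (show Commute (b : H) a from hc b b.2 a a.2).map ρ) μ)
    (fun d => Module.End.iSup_maxGenEigenspace_eq_top _)
  rw [← h]
  exact iSup_congr fun φ => iInf_congr fun d =>
    ((hss d).isFinitelySemisimple.maxGenEigenspace_eq_eigenspace (φ d)).symm

/-- An element in every radical is central in `Q`. -/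
theorem commute_of_forall_inRad {q : ℕ} [Fact q.Prime] (hq2 : q ≠ 2) (hρ : Function.Injective ρ)
    {Q D : Subgroup H} (hD : IsPGroup q D) (hDc : ∀ a ∈ D, ∀ b ∈ D, a * b = b * a) {x : H}
    (h : ∀ φ : D → K, HH.Quad.joint ρ D φ ≠ ⊥ → InRad ρ Q (HH.Quad.joint ρ D φ) x) :
    ∀ x' ∈ Q, x * x' = x' * x := by
  intro x' hx'
  rw [← commutatorElement_eq_one_iff_mul_comm]
  refine hρ ?_
  rw [map_one, ← sub_eq_zero, ← LinearMap.ker_eq_top, eq_top_iff, ← iSup_joint_eq_top_odd hq2 ρ D hD hDc]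
  refine iSup_le fun φ v hv => ?_
  by_cases hb : HH.Quad.joint ρ D φ = ⊥
  · rw [hb, Submodule.mem_bot] at hv
    rw [hv]; exact zero_mem _
  · rw [LinearMap.mem_ker, LinearMap.sub_apply, Module.End.one_apply, h φ hb x' hx' v hv, sub_self]

/-- An inverted element centralises a normal abelian `q`-subgroup. -/
theorem inverted_mem_centralizer (hρ : Function.Injective ρ) {n : ℕ} (hdeg : Deg ρ n) {q : ℕ} [Fact q.Prime]
    (hq2 : q ≠ 2) (D : Subgroup H) [D.Normal] (hD : IsPGroup q D) (hDc : ∀ a ∈ D, ∀ b ∈ D, a * b = b * a)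
    {g : H} (hg : ∃ k, g ^ 2 ^ k = 1) {a : H} (ha : g ^ 2 ^ (n + 1) * a * (g ^ 2 ^ (n + 1))⁻¹ = a⁻¹)
    (hodd : Odd (orderOf a)) : a ∈ Subgroup.centralizer (D : Set H) := by
  obtain ⟨hg1, -⟩ := hdeg g hg
  set y := g ^ 2 ^ (n + 1) with hy
  have hy2 : y * y = 1 := by rw [hy, ← pow_add, ← two_mul, ← pow_succ', hg1]
  have hyinv : y⁻¹ = y := inv_eq_of_mul_eq_one_right hy2
  have hmem : ∀ u : H, (∃ k, u ^ 2 ^ k = 1) → u ^ 2 ^ (n + 1) ∈ Subgroup.centralizer (D : Set H) := fun u hu =>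
    centralizes_abelian hρ hdeg hq2 u hu D hD (by rw [Subgroup.normalizer_eq_top]; trivial) hDc
  have h1 : a * y * a⁻¹ * y ∈ Subgroup.centralizer (D : Set H) := by
    refine mul_mem ?_ (hmem g hg)
    obtain ⟨k, hk⟩ := hg
    have := hmem (a * g * a⁻¹) ⟨k, by rw [conj_pow, hk, mul_one, mul_inv_cancel]⟩
    rwa [conj_pow, ← hy] at this
  have hsqr : a * y * a⁻¹ * y = a ^ 2 := by
    have h3 : y * a⁻¹ * y = a := by
      conv_lhs => rw [← ha, hyinv]
      rw [← mul_assoc, ← mul_assoc, hy2, one_mul, mul_assoc, hy2, mul_one]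
    rw [mul_assoc, mul_assoc, ← mul_assoc y, h3, pow_two]
  rw [hsqr] at h1
  obtain ⟨m, hm⟩ := hodd
  have h2 := (Subgroup.centralizer (D : Set H)).pow_mem h1 (m + 1)
  rwa [← pow_mul, show 2 * (m + 1) = orderOf a + 1 by omega, pow_succ, pow_orderOf_eq_one, one_mul] at h2

theorem odd_orderOf_of_isPGroup {q : ℕ} [hq : Fact q.Prime] (hq2 : q ≠ 2) {R : Subgroup H} (hR : IsPGroup q R)
    {a : H} (ha : a ∈ R) : Odd (orderOf a) := by
  obtain ⟨j, hj⟩ := hR ⟨a, ha⟩
  obtain ⟨i, -, hi⟩ := (Nat.dvd_prime_pow hq.out).mp (orderOf_dvd_of_pow_eq_one (congrArg Subtype.val hj))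
  rw [hi]; exact (hq.out.odd_of_ne_two hq2).pow

set_option maxHeartbeats 2000000 in
/-- The two facts for one prime. -/
theorem per_prime [Group.IsSolvable H] (hρ : Function.Injective ρ) {n : ℕ} (hdeg : Deg ρ n) {q : ℕ}
    [hq : Fact q.Prime] (hq2 : q ≠ 2) (g : H) (hg : ∃ k, g ^ 2 ^ k = 1) {q₂ : ℕ} [hq₂ : Fact q₂.Prime]
    (hq₂2 : q₂ ≠ 2) (e f : H) (hR : IsPGroup q₂ (Subgroup.closure ({e, f} : Set H)))
    (he : g ^ 2 ^ (n + 1) * e * (g ^ 2 ^ (n + 1))⁻¹ = e⁻¹) (hf : f = g ^ 2 ^ n * e * (g ^ 2 ^ n)⁻¹) :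
    (q ≠ q₂ → ⁅e, f⁆ ∈ Subgroup.centralizer (pCore q H : Set H)) ∧
    (q = q₂ → ∃ R : Subgroup H, R.Normal ∧ ⁅e, f⁆ ∈ R ∧
      ∀ r ∈ R, ∃ i, r ^ q ^ i ∈ Subgroup.centralizer (pCore q H : Set H)) := by
  classical
  obtain ⟨Q0, hchar, hfr, hcm0, hC0⟩ := S0093.result (isPGroup_pCore q H)
  haveI := hchar
  set Q : Subgroup H := Q0.map (pCore q H).subtype with hQdef
  haveI hQn : Q.Normal := normal_map_subtype_of_characteristic Q0
  set D : Subgroup H := Q ⊓ Subgroup.centralizer (Q : Set H) with hDdef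
  haveI hDn : D.Normal := Subgroup.normal_inf_normal _ _
  have hQP : Q ≤ pCore q H := Subgroup.map_subtype_le _
  have hQq : IsPGroup q Q := (isPGroup_pCore q H).to_le hQP
  have hDQ : D ≤ Q := inf_le_left
  have hDc : ∀ d ∈ D, ∀ x ∈ Q, d * x = x * d := fun d hd x hx => (Subgroup.mem_centralizer_iff.mp hd.2 x hx).symm
  have hlift : ∀ x : pCore q H, x ∈ Q0 ⊓ Subgroup.centralizer (Q0 : Set (pCore q H)) → (x : H) ∈ D := fun x hx =>
    ⟨⟨x, hx.1, rfl⟩, Subgroup.mem_centralizer_iff.mpr (by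
      rintro _ ⟨z, hz, rfl⟩
      exact congrArg Subtype.val (Subgroup.mem_centralizer_iff.mp hx.2 z hz))⟩
  have hsq : ∀ x ∈ Q, x ^ q ∈ D := by
    rintro _ ⟨x, hx, rfl⟩
    have h1 : (⟨x, hx⟩ : Q0) ^ q ∈ frattini Q0 :=
      FGS3.pow_mem_frattini ((isPGroup_pCore q H).to_subgroup Q0) _
    exact hlift (x ^ q) ⟨Q0.pow_mem hx q, hfr ⟨_, h1, rfl⟩⟩
  have hcm : ∀ x ∈ Q, ∀ y ∈ Q, ⁅x, y⁆ ∈ D := by
    rintro _ ⟨x, hx, rfl⟩ _ ⟨y, -, rfl⟩
    exact hlift ⁅x, y⁆ (hcm0 (Subgroup.commutator_mem_commutator hx (Subgroup.mem_top y)))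
  have hPC : ∀ u ∈ pCore q H, (∀ x ∈ Q, u * x = x * u) → u ∈ D := fun u hu hc => by
    refine hlift ⟨u, hu⟩ ⟨hC0 ?_, ?_⟩ <;>
    · exact Subgroup.mem_centralizer_iff.mpr fun z hz => Subtype.ext (hc z ⟨z, hz, rfl⟩).symm
  have hDq : IsPGroup q D := hQq.to_le hDQ
  have hDab : ∀ a ∈ D, ∀ b ∈ D, a * b = b * a := fun a ha b hb => hDc a ha b (hDQ hb)
  set R0 := Subgroup.closure ({e, f} : Set H) with hR0
  have heR : e ∈ R0 := Subgroup.subset_closure (Or.inl rfl)
  have hfR : f ∈ R0 := Subgroup.subset_closure (Or.inr rfl)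
  have hR0D : R0 ≤ Subgroup.centralizer (D : Set H) := by
    rw [hR0, Subgroup.closure_le]
    have hfinv : g ^ 2 ^ (n + 1) * f * (g ^ 2 ^ (n + 1))⁻¹ = f⁻¹ := by
      set y := g ^ 2 ^ (n + 1)
      set t := g ^ 2 ^ n
      have hc : t * y = y * t := (Commute.pow_pow_self g (2 ^ n) (2 ^ (n + 1))).eq
      calc y * f * y⁻¹ = (y * t) * e * (y * t)⁻¹ := by rw [hf]; group
        _ = t * (y * e * y⁻¹) * t⁻¹ := by rw [← hc]; group
        _ = f⁻¹ := by rw [he, hf]; group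
    rintro a (rfl | ha)
    · exact inverted_mem_centralizer hρ hdeg hq2 D hDq hDab hg he (odd_orderOf_of_isPGroup hq₂2 hR heR)
    · rw [Set.mem_singleton_iff] at ha
      subst ha
      exact inverted_mem_centralizer hρ hdeg hq2 D hDq hDab hg hfinv (odd_orderOf_of_isPGroup hq₂2 hR hfR)
  set c := ⁅e, f⁆ with hc
  have hcR : c ∈ ⁅R0, R0⁆ := Subgroup.commutator_mem_commutator heR hfR
  have hcD : c ∈ Subgroup.centralizer (D : Set H) := hR0D (HH.Quad.commutator_le_self R0 hcR)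
  have hmain := fun φ hφ => section_main (ρ := ρ) hρ hdeg hq2 hQq hDQ hDc hsq hcm g hg hq₂2 e f hR he hf φ hφ
  have hcentral : ∀ x ∈ Q, (∀ φ, HH.Quad.joint ρ D φ ≠ ⊥ → InRad ρ Q (HH.Quad.joint ρ D φ) x) → x ∈ D :=
    fun x hx h => ⟨hx, Subgroup.mem_centralizer_iff.mpr fun x' hx' =>
      (commute_of_forall_inRad hq2 hρ hDq hDab h x' hx').symm⟩
  refine ⟨fun hne => ?_, fun heq => ?_⟩
  · have h1 : ∀ x ∈ Q, x⁻¹ * (c * x * c⁻¹) ∈ D := fun x hx => by
      have h := hcentral _ (Q.mul_mem (hQn.conj_mem x hx c) (Q.inv_mem hx)) fun φ hφ => (hmain φ hφ).1 hne x hx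
      have h' := hDn.conj_mem _ h x⁻¹
      simpa [mul_assoc] using h'
    obtain ⟨i, hi⟩ := pow_mem_centralizer_of_critical hDq hPC
      (fun d hd => (Subgroup.mem_centralizer_iff.mp hcD d hd).symm) h1
    obtain ⟨j, hj⟩ := hR ⟨c, HH.Quad.commutator_le_self R0 hcR⟩
    have hj' : c ^ q₂ ^ j = 1 := congrArg Subtype.val hj
    have hcop : (orderOf c).Coprime (q ^ i) :=
      Nat.Coprime.coprime_dvd_left (orderOf_dvd_of_pow_eq_one hj')
        (((Nat.coprime_primes hq₂.out hq.out).mpr (Ne.symm hne)).pow j i)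
    obtain ⟨m, hm⟩ := exists_pow_eq_self_of_coprime hcop.symm
    exact hm ▸ pow_mem hi m
  · subst heq
    haveI : (D.subgroupOf Q).Normal := inferInstance
    let mk : Q →* Q ⧸ D.subgroupOf Q := QuotientGroup.mk' _
    have hmk1 : ∀ x : Q, mk x = 1 ↔ (x : H) ∈ D := fun x => by
      rw [QuotientGroup.mk'_apply, QuotientGroup.eq_one_iff, Subgroup.mem_subgroupOf]
    letI : CommGroup (Q ⧸ D.subgroupOf Q) := { (inferInstance : Group (Q ⧸ D.subgroupOf Q)) with
      mul_comm := fun a b => by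
        obtain ⟨a, rfl⟩ := QuotientGroup.mk_surjective a
        obtain ⟨b, rfl⟩ := QuotientGroup.mk_surjective b
        refine commutatorElement_eq_one_iff_mul_comm.mp ?_
        show ⁅mk a, mk b⁆ = 1
        rw [← map_commutatorElement, hmk1]
        simpa [commutatorElement_def] using hcm a a.2 b b.2 }
    haveI : Module (ZMod q) (Additive (Q ⧸ D.subgroupOf Q)) := AddCommGroup.zmodModule (fun a => by
      obtain ⟨x, hx⟩ := QuotientGroup.mk_surjective (Additive.toMul a)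
      apply Additive.toMul.injective
      rw [toMul_nsmul, toMul_zero, ← hx]
      show mk x ^ q = 1
      rw [← map_pow, hmk1, Subgroup.coe_pow]
      exact hsq x x.2)
    haveI : Finite (Additive (Q ⧸ D.subgroupOf Q)) := (inferInstance : Finite (Q ⧸ D.subgroupOf Q))
    let mkA : Q → Additive (Q ⧸ D.subgroupOf Q) := fun x => Additive.ofMul (mk x)
    have hmkA : ∀ v, ∃ x : Q, mkA x = v := fun v => by
      obtain ⟨x, hx⟩ := QuotientGroup.mk_surjective (Additive.toMul v)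
      exact ⟨x, by show Additive.ofMul (mk x) = v; rw [show mk x = Additive.toMul v from hx, ofMul_toMul]⟩
    have hmk0 : ∀ x : Q, mkA x = 0 ↔ (x : H) ∈ D := fun x => by
      show Additive.ofMul (mk x) = 0 ↔ _
      rw [ofMul_eq_zero, hmk1]
    have hmksub : ∀ a b : Q, mkA a - mkA b = mkA (a * b⁻¹) := fun a b => by simp [mkA, sub_eq_add_neg]
    let cj : H →* MulAut Q := MulAut.conjNormal
    have hcj : ∀ (u : H) (x : Q), ((cj u x : Q) : H) = u * x * u⁻¹ := fun u x => by simp [cj]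
    let fa : H → (Additive (Q ⧸ D.subgroupOf Q) →+ Additive (Q ⧸ D.subgroupOf Q)) := fun u =>
      MonoidHom.toAdditive (QuotientGroup.map (D.subgroupOf Q) (D.subgroupOf Q) (cj u).toMonoidHom (fun x hx => by
        rw [Subgroup.mem_comap, Subgroup.mem_subgroupOf]
        show ((cj u x : Q) : H) ∈ D
        rw [hcj]
        exact hDn.conj_mem x (Subgroup.mem_subgroupOf.mp hx) u))
    let Λ : H →* Module.End (ZMod q) (Additive (Q ⧸ D.subgroupOf Q)) :=
      { toFun := fun u => (fa u).toZModLinearMap q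
        map_one' := LinearMap.ext fun v => by
          obtain ⟨x, rfl⟩ := hmkA v
          show Additive.ofMul (mk (cj 1 x)) = _
          rw [map_one]; rfl
        map_mul' := fun s u => LinearMap.ext fun v => by
          obtain ⟨x, rfl⟩ := hmkA v
          show Additive.ofMul (mk (cj (s * u) x)) = Additive.ofMul (mk (cj s (cj u x)))
          rw [map_mul]; rfl }
    have hΛ : ∀ (u : H) (x : Q), Λ u (mkA x) = mkA (cj u x) := fun u x => rfl
    have hquad : ∀ a ∈ R0, (Λ c - 1) * (Λ a - 1) = 0 := fun a ha => LinearMap.ext fun v => by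
      obtain ⟨x, rfl⟩ := hmkA v
      rw [Module.End.mul_apply, LinearMap.sub_apply, LinearMap.sub_apply, Module.End.one_apply,
        Module.End.one_apply, LinearMap.zero_apply, hΛ, hmksub, hΛ, hmksub, hmk0]
      simp only [Subgroup.coe_mul, InvMemClass.coe_inv, hcj]
      exact hcentral _ (Q.mul_mem (hQn.conj_mem _ (Q.mul_mem (hQn.conj_mem _ x.2 a) (Q.inv_mem x.2)) c)
        (Q.inv_mem (Q.mul_mem (hQn.conj_mem _ x.2 a) (Q.inv_mem x.2)))) fun φ hφ => (hmain φ hφ).2 rfl a ha x x.2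
    obtain ⟨N, hN, hcN, hNp⟩ := exists_normal_qGroup hq2 R0 hR hcR _ le_rfl Λ hquad
    haveI := hN
    refine ⟨N ⊓ Subgroup.centralizer (D : Set H), inferInstance, ⟨hcN, hcD⟩, fun r hr => ?_⟩
    obtain ⟨i, hi⟩ := hNp r hr.1
    obtain ⟨j, hj⟩ := pow_mem_centralizer_of_critical hDq hPC (h := r ^ q ^ i)
      (fun d hd => ((show Commute r d from (Subgroup.mem_centralizer_iff.mp hr.2 d hd).symm).pow_left _).eq)
      (fun x hx => by
        have h := LinearMap.congr_fun hi (mkA ⟨x, hx⟩)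
        rw [hΛ, Module.End.one_apply, ← sub_eq_zero, hmksub, hmk0] at h
        simp only [Subgroup.coe_mul, InvMemClass.coe_inv, hcj] at h
        have h' := hDn.conj_mem _ h x⁻¹
        simpa [mul_assoc] using h')
    exact ⟨i + j, by rwa [pow_add, pow_mul]⟩

end Cfsg.Agent.KnownA.GrossLength
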