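/-
Gross's bound on the 2-length: assembling the primes of the Fitting subgroup.
-/
import Cfsg.Agent.KnownA.GrossLength.PerPrime

set_option autoImplicit false
set_option linter.style.haveILetI false
set_option linter.unusedSectionVars false
set_option maxSynthPendingDepth 4

namespace Cfsg.Agent.KnownA.GrossLength

open Module Cfsg Cfsg.Agent.Core
open scoped commutatorElement

universe u v w

variable {K : Type u} [Field K] [IsAlgClosed K] [CharP K 2] {M : Type v} [AddCommGroup M] [Module K M]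
  [FiniteDimensional K M] {H : Type w} [Group H] [Finite H] {ρ : H →* Module.End K M}

set_option maxHeartbeats 400000 in
/-- The commutator lies in `O_{2'}`. -/
theorem commutator_mem [Group.IsSolvable H] (hO2 : pCore 2 H = ⊥) (hρ : Function.Injective ρ) {n : ℕ}
    (hdeg : Deg ρ n) (g : H) (hg : ∃ k, g ^ 2 ^ k = 1) {q₂ : ℕ} [hq₂ : Fact q₂.Prime] (hq₂2 : q₂ ≠ 2) (e f : H)
    (hR : IsPGroup q₂ (Subgroup.closure ({e, f} : Set H)))
    (he : g ^ 2 ^ (n + 1) * e * (g ^ 2 ^ (n + 1))⁻¹ = e⁻¹) (hf : f = g ^ 2 ^ n * e * (g ^ 2 ^ n)⁻¹) :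
    ⁅e, f⁆ ∈ pPrimeCore 2 H := by
  classical
  haveI : Fact (Nat.Prime 2) := ⟨Nat.prime_two⟩
  obtain ⟨R, hRn, hcR, hRp⟩ := (per_prime hρ hdeg (q := q₂) hq₂2 g hg hq₂2 e f hR he hf).2 rfl
  haveI := hRn
  set S : Subgroup H := ⨆ q : {q : Nat.Primes // (q : ℕ) ≠ q₂}, pCore ((q : Nat.Primes) : ℕ) H with hS
  haveI : S.Normal := Subgroup.iSup_normal _
  set T := R ⊓ Subgroup.centralizer (S : Set H) with hT
  have hcT : ⁅e, f⁆ ∈ T := by
    refine ⟨hcR, ?_⟩
    suffices h : S ≤ Subgroup.centralizer ({⁅e, f⁆} : Set H) from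
      Subgroup.mem_centralizer_iff.mpr fun s hs => Subgroup.mem_centralizer_singleton_iff.mp (h hs)
    refine iSup_le fun q s hs => Subgroup.mem_centralizer_singleton_iff.mpr ?_
    haveI := Fact.mk q.1.2
    rcases eq_or_ne ((q : Nat.Primes) : ℕ) 2 with h2 | h2
    · rw [h2, hO2, Subgroup.mem_bot] at hs
      rw [hs, one_mul, mul_one]
    · exact Subgroup.mem_centralizer_iff.mp ((per_prime hρ hdeg h2 g hg hq₂2 e f hR he hf).1 q.2) s hs
  refine le_pPrimeCore (inferInstance : T.Normal) ?_ hcT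
  rw [Nat.coprime_comm, Nat.prime_two.coprime_iff_not_dvd]
  intro hdvd
  obtain ⟨r, hr⟩ := exists_prime_orderOf_dvd_card' 2 hdvd
  rw [← Subgroup.orderOf_coe] at hr
  obtain ⟨i, hi⟩ := hRp r r.2.1
  obtain ⟨m, hm⟩ := exists_pow_eq_self_of_coprime
    (show (q₂ ^ i).Coprime (orderOf (r : H)) by
      rw [hr]; exact ((Nat.coprime_primes hq₂.out Nat.prime_two).mpr hq₂2).pow_left i)
  have hrF : (r : H) ∈ fittingSubgroup H := by
    refine S0044.result ?_
    suffices h : fittingSubgroup H ≤ Subgroup.centralizer ({(r : H)} : Set H) from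
      Subgroup.mem_centralizer_iff.mpr fun s hs => Subgroup.mem_centralizer_singleton_iff.mp (h hs)
    rw [fittingSubgroup_eq_iSup]
    refine iSup_le fun q s hs => Subgroup.mem_centralizer_singleton_iff.mpr ?_
    by_cases hqq : (q : ℕ) = q₂
    · rw [hqq] at hs
      exact Subgroup.mem_centralizer_iff.mp (hm ▸ pow_mem hi m) s hs
    · exact Subgroup.mem_centralizer_iff.mp r.2.2 s (le_iSup (fun q : {q : Nat.Primes // (q : ℕ) ≠ q₂} =>
        pCore ((q : Nat.Primes) : ℕ) H) ⟨q, hqq⟩ hs)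
  obtain ⟨P, hP⟩ := (IsPGroup.of_card (G := Subgroup.zpowers (⟨r, hrF⟩ : fittingSubgroup H)) (p := 2) (n := 1)
    (by rw [Nat.card_zpowers, ← Subgroup.orderOf_coe, pow_one]; exact hr)).exists_le_sylow
  have h1 : (r : H) ∈ pCore 2 H := sylow_fittingSubgroup_map P ▸ ⟨_, hP (Subgroup.mem_zpowers _), rfl⟩
  rw [hO2, Subgroup.mem_bot] at h1
  rw [h1, orderOf_one] at hr
  exact absurd hr (by norm_num)

end Cfsg.Agent.KnownA.GrossLength
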