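/-
Gross's bound on the 2-length: in the second layer an exceptional 2-element yields an inverted element not
commuting with its translate.
-/
import Cfsg.Agent.KnownA.GrossLength.Component
import Cfsg.Agent.KnownA.GrossLength.Section
import Cfsg.Agent.Core.HallHigman.TheoremB

set_option autoImplicit false
set_option linter.style.haveILetI false
set_option linter.unusedSectionVars false
set_option maxSynthPendingDepth 4

namespace Cfsg.Agent.KnownA.GrossLength

open Module Cfsg Cfsg.Agent.Core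
open scoped commutatorElement

universe u v w

variable {K : Type u} [Field K] [IsAlgClosed K] [CharP K 2] {M : Type v} [AddCommGroup M] [Module K M]
  [FiniteDimensional K M] {H : Type w} [Group H] [Finite H]

set_option maxHeartbeats 1000000 in
theorem exists_pair [Group.IsSolvable H] (hO2 : pCore 2 H = ⊥) {ρ : H →* Module.End K M}
    (hρ : Function.Injective ρ) {n : ℕ} (hdeg : Deg ρ n) (x : H) (hx : orderOf x = 2 ^ (n + 2)) :
    ∃ q : ℕ, q.Prime ∧ q ≠ 2 ∧ ∃ S : Subgroup H, IsPGroup q S ∧ x ∈ Subgroup.normalizer (S : Set H) ∧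
      ∃ e ∈ S, x ^ 2 ^ (n + 1) * e * (x ^ 2 ^ (n + 1))⁻¹ = e⁻¹ ∧
        ⁅e, x ^ 2 ^ n * e * (x ^ 2 ^ n)⁻¹⁆ ≠ 1 := by
  classical
  haveI : Fact (Nat.Prime 2) := ⟨Nat.prime_two⟩
  have hsol : IsPSolvable 2 H := isPSolvable_of_isSolvable
  set N := pPrimeCore 2 H with hN
  set y := x ^ 2 ^ (n + 1) with hydef
  have hyo : orderOf y = 2 := by
    rw [hydef, orderOf_pow' _ (pow_ne_zero _ two_ne_zero), hx,
      Nat.gcd_eq_right (pow_dvd_pow 2 (Nat.le_succ (n + 1))), Nat.pow_div (Nat.le_succ (n + 1)) two_pos,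
      show (n + 1).succ - (n + 1) = 1 by omega, pow_one]
  have hyC : y ∉ Subgroup.centralizer (N : Set H) := fun hc => by
    have h1 : piCore ({2}ᶜ)ᶜ H = ⊥ := by rw [compl_compl, ← pCore_eq_piCore, hO2]
    have h2 := centralizer_piCore_le (isPiSeparable_compl (isPiSeparable_of_isPSolvable hsol)) h1
    rw [← pPrimeCore_eq_piCore] at h2
    have h3 := Subgroup.orderOf_dvd_natCard _ (h2 hc)
    rw [hyo] at h3
    exact not_dvd_card_pPrimeCore 2 H h3
  have hA : Subgroup.zpowers x ≤ Subgroup.normalizer (N : Set H) := by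
    rw [Subgroup.normalizer_eq_top]; exact le_top
  have hcop : (Nat.card (Subgroup.zpowers x)).Coprime (Nat.card N) := by
    rw [Nat.card_zpowers, hx]; exact (card_pPrimeCore_coprime 2 H).symm.pow_left _
  obtain ⟨q, hq, P, hPN, hPq, hxP, hyP⟩ : ∃ q : ℕ, q.Prime ∧ ∃ P : Subgroup H, P ≤ N ∧ IsPGroup q P ∧
      x ∈ Subgroup.normalizer (P : Set H) ∧ y ∉ Subgroup.centralizer (P : Set H) := by
    by_contra hno
    simp only [not_exists, not_and, not_not] at hno
    refine hyC ?_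
    have htop : (Subgroup.centralizer ({y} : Set H)).subgroupOf N = ⊤ := by
      refine eq_top_of_forall_exists_sylow_le fun q hq => ?_
      haveI := Fact.mk hq
      obtain ⟨P, hPN, hPq, hPi, hAP⟩ := exists_invariant_sylow hA (Or.inl inferInstance) hcop q
      have hPi' : ¬ q ∣ (P.subgroupOf N).index := hPi
      refine ⟨(hPq.comap_subtype (K := N)).toSylow hPi', fun z hz => ?_⟩
      refine Subgroup.mem_subgroupOf.mpr (Subgroup.mem_centralizer_singleton_iff.mpr ?_)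
      exact Subgroup.mem_centralizer_iff.mp (hno q hq P hPN hPq (hAP (Subgroup.mem_zpowers x))) (z : H) hz
    refine Subgroup.mem_centralizer_iff.mpr fun z hz => ?_
    exact Subgroup.mem_centralizer_singleton_iff.mp ((Subgroup.subgroupOf_eq_top.mp htop) hz)
  haveI := Fact.mk hq
  have hq2 : q ≠ 2 := by
    rintro rfl
    obtain ⟨j, hj⟩ := IsPGroup.iff_card.mp hPq
    rcases Nat.eq_zero_or_pos j with rfl | hj0
    · rw [pow_zero, Subgroup.card_eq_one] at hj
      exact hyP (by rw [hj, Subgroup.coe_bot]; simp [Subgroup.mem_centralizer_iff])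
    · exact not_dvd_card_pPrimeCore 2 H ((hj ▸ dvd_pow_self 2 hj0.ne').trans (Subgroup.card_dvd_of_le hPN))
  have hxpow : x ^ 2 ^ (n + 2) = 1 := hx ▸ pow_orderOf_eq_one x
  obtain ⟨S, σ, hSP, hσ, hσn, hfix, hgen, hyS⟩ :=
    HH.exists_minimal_sub (Ne.symm hq2) x hxpow (by omega) P hPq hxP hyP
  have hfix' : ∀ a b : S, (σ ^ 2 ^ (n + 1)) ⁅a, b⁆ = ⁅a, b⁆ := hfix
  have hgen' : Subgroup.closure (Set.range fun s => (σ ^ 2 ^ (n + 1)) s * s⁻¹) = ⊤ := hgen
  have hσpow : ∀ (k : ℕ) (s : S), (((σ ^ k) s : S) : H) = x ^ k * s * (x ^ k)⁻¹ := by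
    intro k
    induction k with
    | zero => intro s; simp
    | succ k ih =>
      intro s
      rw [pow_succ', MulAut.mul_apply, hσ, ih, pow_succ']
      group
  refine ⟨q, hq, hq2, S, hPq.to_le hSP, Subgroup.mem_normalizer_iff.mpr fun h => ⟨fun hh => ?_, fun hh => ?_⟩, ?_⟩
  · exact hσ ⟨h, hh⟩ ▸ (σ ⟨h, hh⟩).2
  · obtain ⟨s, hs⟩ := σ.surjective ⟨_, hh⟩
    have h1 : x * (s : H) * x⁻¹ = x * h * x⁻¹ := (hσ s).symm.trans (congrArg Subtype.val hs)
    exact mul_left_cancel (mul_right_cancel h1) ▸ s.2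
  by_contra hno
  push Not at hno
  set τ := σ ^ 2 ^ (n + 1) with hτ
  set T := σ ^ 2 ^ n with hT
  have hTT : ∀ s, T (T s) = τ s := fun s => by
    rw [← MulAut.mul_apply, hT, ← pow_add, ← two_mul, ← pow_succ']
  have hττ : ∀ s, τ (τ s) = s := fun s => by
    rw [← MulAut.mul_apply, hτ, ← pow_add, ← two_mul, ← pow_succ', hσn, MulAut.one_apply]
  let u : S → S := fun s => τ s * s⁻¹
  have huinv : ∀ s, τ (u s) = (u s)⁻¹ := fun s => by
    show τ (τ s * s⁻¹) = (τ s * s⁻¹)⁻¹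
    rw [map_mul, map_inv, hττ, mul_inv_rev, inv_inv]
  have hgen'' : Subgroup.closure (Set.range u) = ⊤ := hgen'
  -- commutators are central
  have hcen : ∀ a b c : S, ⁅a, b⁆ * c = c * ⁅a, b⁆ := by
    intro a b c
    have hle : Subgroup.closure (Set.range u) ≤ Subgroup.centralizer ({⁅a, b⁆} : Set S) := by
      rw [Subgroup.closure_le]
      rintro _ ⟨s, rfl⟩
      rw [SetLike.mem_coe, Subgroup.mem_centralizer_singleton_iff]
      have h := hfix' s⁻¹ ⁅a, b⁆
      rw [map_commutatorElement, hfix' a b, map_inv] at h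
      simp only [commutatorElement_def, inv_inv] at h
      have h' := congrArg (fun z => τ s * z * (⁅a, b⁆ * s⁻¹)) h
      simp only [← commutatorElement_def] at h'
      show τ s * s⁻¹ * ⁅a, b⁆ = ⁅a, b⁆ * (τ s * s⁻¹)
      have e1 : τ s * ((τ s)⁻¹ * ⁅a, b⁆ * τ s * ⁅a, b⁆⁻¹) * (⁅a, b⁆ * s⁻¹) = ⁅a, b⁆ * (τ s * s⁻¹) := by group
      have e2 : τ s * (s⁻¹ * ⁅a, b⁆ * s * ⁅a, b⁆⁻¹) * (⁅a, b⁆ * s⁻¹) = τ s * s⁻¹ * ⁅a, b⁆ := by group
      rw [e1, e2] at h'
      exact h'.symm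
    rw [hgen''] at hle
    exact (Subgroup.mem_centralizer_singleton_iff.mp (hle (Subgroup.mem_top c))).symm
  have hbimul : ∀ a b c : S, ⁅a * b, c⁆ = ⁅a, c⁆ * ⁅b, c⁆ := fun a b c => by
    calc ⁅a * b, c⁆ = a * ⁅b, c⁆ * a⁻¹ * ⁅a, c⁆ := by simp only [commutatorElement_def]; group
      _ = ⁅a, c⁆ * ⁅b, c⁆ := by rw [← hcen b c a, mul_inv_cancel_right, hcen b c]
  have hbimul' : ∀ a b c : S, ⁅a, b * c⁆ = ⁅a, b⁆ * ⁅a, c⁆ := fun a b c => by
    calc ⁅a, b * c⁆ = ⁅a, b⁆ * (b * ⁅a, c⁆ * b⁻¹) := by simp only [commutatorElement_def]; group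
      _ = ⁅a, b⁆ * ⁅a, c⁆ := by rw [← hcen a c b, mul_inv_cancel_right]
  have hzero : ∀ z : S, (∀ c : S, z * c = c * z) → ∀ c : S, ⁅z, c⁆ = 1 ∧ ⁅c, z⁆ = 1 := fun z hz c =>
    ⟨commutatorElement_eq_one_iff_mul_comm.mpr (hz c), commutatorElement_eq_one_iff_mul_comm.mpr (hz c).symm⟩
  have hinvT : ∀ s, ⁅u s, T (u s)⁆ = 1 := fun s => by
    have h1 : x ^ 2 ^ (n + 1) * (u s : H) * (x ^ 2 ^ (n + 1))⁻¹ = (u s : H)⁻¹ := by
      rw [← hσpow]; exact congrArg Subtype.val (huinv s)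
    have h2 := hno (u s : H) (u s).2 (by rw [hydef] at *; exact h1)
    refine Subtype.ext ?_
    rw [OneMemClass.coe_one, ← h2, ← hσpow]
    simp [commutatorElement_def, hT]
  let g : S → S → S := fun a b => ⁅a, T b⁆ * ⁅b, T a⁆
  have hguu : ∀ s s', g (u s) (u s') = 1 := fun s s' => by
    have hus : u (s * s') = u s * u s' * ⁅(u s')⁻¹, s⁆ := by
      show τ (s * s') * (s * s')⁻¹ = τ s * s⁻¹ * (τ s' * s'⁻¹) * ⁅(τ s' * s'⁻¹)⁻¹, s⁆
      rw [map_mul, commutatorElement_def]; group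
    set z := ⁅(u s')⁻¹, s⁆ with hz
    have hzc : ∀ c, z * c = c * z := hcen _ _
    have hTzc : ∀ c, T z * c = c * T z := fun c => by rw [hz, map_commutatorElement]; exact hcen _ _ c
    have h := hinvT (s * s')
    have hz1 : ∀ c : S, ⁅z, c⁆ = 1 := fun c => (hzero z hzc c).1
    have hz2 : ∀ c : S, ⁅c, T z⁆ = 1 := fun c => (hzero (T z) hTzc c).2
    rw [hus] at h
    simp only [map_mul, hbimul, hbimul', hz1, hz2, hinvT, one_mul, mul_one] at h
    exact h
  have hg1 : ∀ (a b b' : S), g a (b * b') = g a b * g a b' := fun a b b' => by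
    show ⁅a, T (b * b')⁆ * ⁅b * b', T a⁆ = ⁅a, T b⁆ * ⁅b, T a⁆ * (⁅a, T b'⁆ * ⁅b', T a⁆)
    rw [map_mul, hbimul', hbimul, mul_assoc, ← mul_assoc ⁅a, T b'⁆, hcen a (T b') ⁅b, T a⁆]
    simp only [mul_assoc]
  have hg2 : ∀ a b, g a b = g b a := fun a b => hcen a (T b) _
  have hgright : ∀ a, (∀ s, g a (u s) = 1) → ∀ b, g a b = 1 := fun a ha b => by
    let φ : S →* S := MonoidHom.mk' (g a) (hg1 a)
    have : Subgroup.closure (Set.range u) ≤ φ.ker := (Subgroup.closure_le _).mpr (by rintro _ ⟨s, rfl⟩; exact ha s)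
    rw [hgen''] at this
    exact this (Subgroup.mem_top b)
  have hg : ∀ a b, g a b = 1 := fun a => hgright a fun s => by rw [hg2]; exact hgright (u s) (hguu s) a
  -- the translate inverts commutators
  have hTinv : ∀ a b : S, T ⁅a, b⁆ = ⁅a, b⁆⁻¹ := by
    intro a
    let φ : S →* S := MonoidHom.mk' (fun b => T ⁅a, b⁆ * ⁅a, b⁆) fun b b' => by
      rw [hbimul', map_mul, mul_assoc, ← mul_assoc (T ⁅a, b'⁆),
        ← hcen a b (T ⁅a, b'⁆)]
      simp only [mul_assoc]
    have hk : Subgroup.closure (Set.range u) ≤ φ.ker := by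
      rw [Subgroup.closure_le]
      rintro _ ⟨s, rfl⟩
      show T ⁅a, u s⁆ * ⁅a, u s⁆ = 1
      have h := hg a (T (u s))
      simp only [g, hTT, huinv, ← map_commutatorElement] at h
      have h1 : ⁅a, (u s)⁻¹⁆ * ⁅a, u s⁆ = 1 := by
        rw [← hbimul', inv_mul_cancel, commutatorElement_one_right]
      rw [← mul_eq_one_iff_eq_inv.mp h1 |> Eq.symm] at h1
      have h2 : T ⁅u s, a⁆ = ⁅a, (u s)⁻¹⁆⁻¹ := eq_inv_of_mul_eq_one_right h
      rw [← commutatorElement_inv (u s) a, map_inv, h2, inv_inv, commutatorElement_inv]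
      rw [← hbimul', inv_mul_cancel, commutatorElement_one_right]
    rw [hgen''] at hk
    exact fun b => mul_eq_one_iff_eq_inv.mp (hk (Subgroup.mem_top b))
  -- the component
  have hSne : ∃ s : S, (ρ.comp S.subtype) s ≠ 1 := by
    by_contra h
    simp only [not_exists, not_not] at h
    refine hyS (Subgroup.mem_centralizer_iff.mpr fun s hs => ?_)
    have h1 : ρ s = ρ 1 := by rw [map_one]; exact h ⟨s, hs⟩
    rw [hρ h1, one_mul, mul_one]
  have hqK : (q : K) ≠ 0 := fun h => hq2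
    ((Nat.prime_dvd_prime_iff_eq Nat.prime_two hq).mp ((CharP.cast_eq_zero_iff K 2 q).mp h)).symm
  have hXρ : ∀ s : S, ρ x * (ρ.comp S.subtype) s = (ρ.comp S.subtype) (σ s) * ρ x := fun s => by
    simp only [MonoidHom.comp_apply, Subgroup.coe_subtype, hσ, ← map_mul]; group
  obtain ⟨W, a, N', e', ha, hWne, hWX, hWinv, hscal, hcen', hN2, hNP, -, hcard, -⟩ :=
    exists_component2 (hPq.to_le hSP) hqK (ρ.comp S.subtype) hSne (ρ x) σ (Ne.symm hq2) (by omega : 0 < n + 2)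
      (by rw [← map_pow, hxpow, map_one]) hXρ hσn hfix hgen
      (hdeg x ⟨n + 2, hxpow⟩).2
  have han : a ≤ n := by
    by_contra hlt
    have := Nat.pow_le_pow_right (show 0 < 2 by norm_num) (show n + 2 - a ≤ 1 by omega)
    omega
  have hYW : ∀ w ∈ W, ρ (x ^ 2 ^ n) w ∈ W := fun w hw => by
    rw [map_pow, show 2 ^ n = 2 ^ a * 2 ^ (n - a) by rw [← pow_add, Nat.add_sub_cancel' han], pow_mul]
    generalize 2 ^ (n - a) = m
    induction m with
    | zero => simpa using hw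
    | succ m ih => rw [pow_succ', Module.End.mul_apply]; exact hWX _ ih
  have hallscal : ∀ s s' : S, ∀ w ∈ W, ρ (⁅s, s'⁆ : S) w = w := by
    intro s s' w hw
    obtain ⟨lam, hlam⟩ := hscal s s'
    have hlam' : ∀ v ∈ W, ρ (⁅s, s'⁆ : S) v = lam • v := hlam
    by_cases hw0 : w = 0
    · rw [hw0, map_zero]
    have hv := hlam' _ (hYW w hw)
    set v := ρ (x ^ 2 ^ n) w with hvdef
    have hvne : v ≠ 0 := fun h => hw0 (by
      have := congrArg (ρ (x ^ 2 ^ n)⁻¹) h
      rwa [hvdef, ← Module.End.mul_apply, ← map_mul, inv_mul_cancel, map_one, Module.End.one_apply, map_zero] at this)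
    have hTc : (x ^ 2 ^ n) * ((⁅s, s'⁆ : S) : H) = (((⁅s, s'⁆ : S) : H))⁻¹ * x ^ 2 ^ n := by
      have h := congrArg Subtype.val (hTinv s s')
      rw [hσpow, InvMemClass.coe_inv, mul_inv_eq_iff_eq_mul] at h
      exact h
    have h1 : lam • v = ρ (((⁅s, s'⁆ : S) : H))⁻¹ v := by
      rw [hvdef, ← map_smul, ← hlam' w hw, ← Module.End.mul_apply, ← map_mul, hTc, map_mul, Module.End.mul_apply]
    have h2 := congrArg (ρ ((⁅s, s'⁆ : S) : H)) h1
    rw [map_smul, hv, ← Module.End.mul_apply, ← map_mul, mul_inv_cancel, map_one, Module.End.one_apply,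
      smul_smul] at h2
    have h3 : lam * lam = 1 := smul_left_injective K hvne (h2.trans (one_smul K v).symm)
    have h4 : (lam - 1) ^ 2 = 0 := by
      rw [sub_pow_char (R := K), one_pow, pow_two, h3, sub_self]
    rw [hlam' w hw, sub_eq_zero.mp (pow_eq_zero_iff two_ne_zero |>.mp h4), one_smul]
  have hall : ∀ s : S, ∃ c : K, ∀ w ∈ W, (ρ.comp S.subtype) s w = c • w := fun s => hcen' s fun s' w hw => by
    rw [← Module.End.mul_apply, ← map_mul, show s * s' = ⁅s, s'⁆ * (s' * s) by rw [commutatorElement_def]; group,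
      map_mul, Module.End.mul_apply]
    refine (hallscal s s' _ (hWinv (s' * s) w hw)).trans ?_
    rw [map_mul, Module.End.mul_apply]
  have hc : Nat.card {s : S // ∃ c : K, ∀ w ∈ W, (ρ.comp S.subtype) s w = c • w} = Nat.card S :=
    Nat.card_congr (Equiv.subtypeUnivEquiv hall)
  rw [hc] at hcard
  have : N' ^ 2 = 1 := by
    have hpos : 0 < Nat.card S := Nat.card_pos
    exact Nat.eq_of_mul_eq_mul_left hpos (hcard.trans (mul_one _).symm)
  have := Nat.le_self_pow two_ne_zero N'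
  omega

end Cfsg.Agent.KnownA.GrossLength
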