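/-
Gross's bound on the 2-length: `l ≤ 2 e - 1`.
-/
import Cfsg.Agent.KnownA.GrossLength.Combine
import Cfsg.Agent.KnownA.GrossLength.LayerTwo
import Cfsg.Agent.Core.HallHigman.PLengthTwice

set_option autoImplicit false
set_option linter.style.haveILetI false
set_option linter.unusedSectionVars false
set_option maxSynthPendingDepth 4

namespace Cfsg.Agent.KnownA.GrossLength

open Module Cfsg Cfsg.Agent.Core
open scoped commutatorElement

universe u v

/-- A 2-modular faithful representation realised over an algebraically closed field. -/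
theorem exists_closed_rep {H : Type u} [Group H] {M : Type v} [AddCommGroup M] [Module (ZMod 2) M] [Finite M]
    [Fact (Nat.Prime 2)] (L : H →* Module.End (ZMod 2) M) (hinj : Function.Injective L) :
    ∃ (d : ℕ) (ρ : H →* Module.End (AlgebraicClosure (ZMod 2)) (Fin d → AlgebraicClosure (ZMod 2))),
      Function.Injective ρ ∧ ∀ (h : H) (k : ℕ), (L h - 1) ^ k = 0 → (ρ h - 1) ^ k = 0 := by
  haveI : Module.Finite (ZMod 2) M := Module.Finite.of_finite
  let K := AlgebraicClosure (ZMod 2)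
  let b := Module.finBasis (ZMod 2) M
  let φ : Module.End (ZMod 2) M →+* Module.End K (Fin (Module.finrank (ZMod 2) M) → K) :=
    ((Matrix.toLinAlgEquiv' (R := K)).toRingEquiv.toRingHom.comp
      ((algebraMap (ZMod 2) K).mapMatrix.comp (LinearMap.toMatrixAlgEquiv b).toRingEquiv.toRingHom))
  have hφ : Function.Injective φ := by
    intro A B hAB
    exact (LinearMap.toMatrixAlgEquiv b).injective (Matrix.map_injective (algebraMap (ZMod 2) K).injective
      ((Matrix.toLinAlgEquiv' (R := K)).injective hAB))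
  refine ⟨_, φ.toMonoidHom.comp L, hφ.comp hinj, fun h k hk => ?_⟩
  have h' := congrArg φ hk
  rwa [map_zero, map_pow, map_sub, map_one] at h'

set_option maxHeartbeats 1000000 in
/-- A 2-element of maximal order in the second layer lifts to a configuration contradicting `commutator_mem`. -/
theorem exists_lift {H : Type u} [Group H] [Finite H] {H2 : Type v} [Group H2] (mk : H →* H2)
    (hmk : Function.Surjective mk) {q : ℕ} [hq : Fact q.Prime] (hq2 : q ≠ 2) {n : ℕ}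
    (hexp : ∀ u : H, (∃ k, u ^ 2 ^ k = 1) → u ^ 2 ^ (n + 2) = 1)
    {S : Subgroup H2} (hS : IsPGroup q S) {x : H2} (hx : orderOf x = 2 ^ (n + 2))
    (hxS : x ∈ Subgroup.normalizer (S : Set H2)) {e : H2} (he : e ∈ S)
    (hey : x ^ 2 ^ (n + 1) * e * (x ^ 2 ^ (n + 1))⁻¹ = e⁻¹) :
    ∃ g : H, (∃ k, g ^ 2 ^ k = 1) ∧ mk g = x ∧ ∃ e' : H, mk e' = e ∧
      g ^ 2 ^ (n + 1) * e' * (g ^ 2 ^ (n + 1))⁻¹ = e'⁻¹ ∧
      IsPGroup q (Subgroup.closure ({e', g ^ 2 ^ n * e' * (g ^ 2 ^ n)⁻¹} : Set H)) := by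
  classical
  haveI : Fact (Nat.Prime 2) := ⟨Nat.prime_two⟩
  set F := S.comap mk with hF
  obtain ⟨R⟩ : Nonempty (Sylow q F) := inferInstance
  set R' : Subgroup H := (R : Subgroup F).map F.subtype with hR'
  have hR'q : IsPGroup q R' := R.isPGroup'.map _
  let π : F →* S := mk.subgroupComap S
  have hπ : Function.Surjective π := mk.subgroupComap_surjective_of_surjective S hmk
  have hRS : ∀ s : S, ∃ r ∈ R', mk r = s := fun s => by
    have htop : ((R.mapSurjective hπ : Sylow q S) : Subgroup S) = ⊤ :=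
      ((R.mapSurjective hπ).is_maximal' (hS.to_subgroup ⊤ |>.to_le le_rfl) le_top).symm
    have hs : s ∈ ((R.mapSurjective hπ : Sylow q S) : Subgroup S) := htop ▸ Subgroup.mem_top s
    rw [Sylow.coe_mapSurjective] at hs
    obtain ⟨r, hr, hrs⟩ := hs
    exact ⟨(r : H), ⟨r, hr, rfl⟩, by rw [← hrs]; rfl⟩
  obtain ⟨x₀, rfl⟩ := hmk x
  have hx₀F : x₀ ∈ Subgroup.normalizer (F : Set H) := Subgroup.mem_normalizer_iff.mpr fun h => by
    simp only [SetLike.mem_coe, hF, Subgroup.mem_comap, map_mul, map_inv]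
    exact Subgroup.mem_normalizer_iff.mp hxS (mk h)
  let c : MulAut F := Subgroup.normalizerMonoidHom F ⟨x₀, hx₀F⟩
  have hc : ∀ z : F, ((c z : F) : H) = x₀ * z * x₀⁻¹ := fun z => rfl
  have hcs : Function.Surjective c.toMonoidHom := c.surjective
  obtain ⟨r, hr⟩ := MulAction.exists_smul_eq F R (R.mapSurjective hcs)
  set ν := (r : H)⁻¹ * x₀ with hν
  have hνR : ∀ z ∈ R', ν * z * ν⁻¹ ∈ R' := by
    rintro _ ⟨z, hz, rfl⟩
    have h : c z ∈ ((r • R : Sylow q F) : Subgroup F) := by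
      rw [hr, Sylow.coe_mapSurjective]; exact ⟨z, hz, rfl⟩
    rw [Sylow.coe_subgroup_smul, mem_conj_smul_iff] at h
    refine ⟨r⁻¹ * c z * r, SetLike.mem_coe.mpr (by simpa using h), ?_⟩
    rw [hν, mul_inv_rev, inv_inv]
    simp only [Subgroup.coe_subtype, Subgroup.coe_mul, InvMemClass.coe_inv, hc, mul_assoc]
  have hνN : ν ∈ Subgroup.normalizer (R' : Set H) := by
    have hmap : R'.map (MulAut.conj ν).toMonoidHom = R' := by
      refine Subgroup.eq_of_le_of_card_ge ?_ (Nat.card_congr ((MulAut.conj ν).subgroupMap R').toEquiv).le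
      rintro _ ⟨z, hz, rfl⟩
      exact hνR z hz
    refine Subgroup.mem_normalizer_iff.mpr fun z => ⟨hνR z, fun hz => ?_⟩
    replace hz : ν * z * ν⁻¹ ∈ R'.map (MulAut.conj ν).toMonoidHom := by rw [hmap]; exact hz
    obtain ⟨z', hz', he'⟩ := hz
    rwa [show z' = z from (MulAut.conj ν).injective (by simpa [MulAut.conj_apply] using he')] at hz'
  obtain ⟨r₁, hr₁, hr₁s⟩ := hRS ⟨mk r, r.2⟩
  have hr₁N : r₁ ∈ Subgroup.normalizer (R' : Set H) := Subgroup.le_normalizer hr₁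
  set ν' := r₁ * ν with hν'
  have hν'N : ν' ∈ Subgroup.normalizer (R' : Set H) := mul_mem hr₁N hνN
  have hν'x : mk ν' = mk x₀ := by
    rw [hν', hν, map_mul, map_mul, map_inv, hr₁s]; exact mul_inv_cancel_left _ _
  -- the 2-part
  obtain ⟨a, m, hm, ham⟩ := Nat.exists_eq_two_pow_mul_odd (orderOf_pos ν').ne'
  obtain ⟨k, hk⟩ := exists_pow_eq_self_of_coprime (x := mk x₀) (n := m)
    (by rw [hx]; exact (Nat.coprime_two_right.mpr hm).pow_right _)
  set g := (ν' ^ m) ^ k with hg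
  have hgx : mk g = mk x₀ := by rw [hg, map_pow, map_pow, hν'x, hk]
  have hgN : g ∈ Subgroup.normalizer (R' : Set H) := pow_mem (pow_mem hν'N _) _
  have hg2 : ∃ j, g ^ 2 ^ j = 1 := ⟨a, by
    rw [hg, ← pow_mul, mul_comm k, pow_mul, ← pow_mul ν', mul_comm m, ← ham, pow_orderOf_eq_one, one_pow]⟩
  refine ⟨g, hg2, hgx, ?_⟩
  set y := g ^ 2 ^ (n + 1) with hy
  have hy2 : y * y = 1 := by rw [hy, ← pow_add, ← two_mul, ← pow_succ', hexp g hg2]
  have hyinv : y⁻¹ = y := inv_eq_of_mul_eq_one_right hy2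
  have hconj : ∀ u ∈ Subgroup.normalizer (R' : Set H), ∀ z ∈ R', u * z * u⁻¹ ∈ R' := fun u hu z hz =>
    (Subgroup.mem_normalizer_iff.mp hu z).mp hz
  obtain ⟨r₂, hr₂, hr₂e⟩ := hRS ⟨e, he⟩
  set u := y * r₂ * y⁻¹ * r₂⁻¹ with hu
  have huR : u ∈ R' := R'.mul_mem (hconj y (pow_mem hgN _) r₂ hr₂) (R'.inv_mem hr₂)
  have hyu : y * u * y⁻¹ = u⁻¹ := by
    rw [hu, hyinv]
    simp only [mul_inv_rev, inv_inv, mul_assoc, hyinv]
    rw [← mul_assoc y y, hy2, one_mul]
  have hmku : mk u = e⁻¹ * e⁻¹ := by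
    rw [hu, map_mul, map_mul, map_mul, map_inv, map_inv, hy, map_pow, hgx, hr₂e, hey]
  obtain ⟨j, hj⟩ := hS ⟨e, he⟩
  obtain ⟨k', hk'⟩ := exists_pow_eq_self_of_coprime (x := e) (n := 2)
    (Nat.Coprime.coprime_dvd_right (orderOf_dvd_of_pow_eq_one (congrArg Subtype.val hj))
      (((Nat.coprime_primes Nat.prime_two hq.out).mpr (Ne.symm hq2)).pow_right j))
  refine ⟨(u⁻¹) ^ k', ?_, ?_, ?_⟩
  · rw [map_pow, map_inv, hmku, mul_inv_rev, inv_inv, ← pow_two, hk']
  · have h1 : y * u⁻¹ * y⁻¹ = (u⁻¹)⁻¹ := by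
      rw [inv_inv, ← inv_inj, mul_inv_rev, mul_inv_rev, inv_inv, inv_inv, ← mul_assoc, hyu]
    rw [← conj_pow, h1, inv_pow]
  · refine hR'q.to_le ((Subgroup.closure_le _).mpr ?_)
    rintro z (rfl | hz)
    · exact pow_mem (R'.inv_mem huR) _
    · rw [Set.mem_singleton_iff] at hz
      subst hz
      exact hconj _ (pow_mem hgN _) _ (pow_mem (R'.inv_mem huR) _)

set_option maxHeartbeats 1000000 in
/-- Over two layers the exponent drops. -/
theorem exponent_drop {G : Type u} [Group G] [Finite G] [Group.IsSolvable G] [Fact (Nat.Prime 2)]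
    (h0 : pPrimeCore 2 G = ⊥) {n : ℕ} (hexp : HH.ExpLE 2 (n + 2) G) :
    HH.ExpLE 2 (n + 1) (((G ⧸ pCore 2 G) ⧸ pPrimeCore 2 (G ⧸ pCore 2 G)) ⧸
      pCore 2 ((G ⧸ pCore 2 G) ⧸ pPrimeCore 2 (G ⧸ pCore 2 G))) := by
  classical
  have hs : IsPSolvable 2 G := isPSolvable_of_isSolvable
  have hsH := isPSolvable_quotient hs (pCore 2 G)
  have hsH1 := isPSolvable_quotient hsH (pPrimeCore 2 (G ⧸ pCore 2 G))
  obtain ⟨M, _, _, _, π, L, hsurj, hadd, hinj, hconj⟩ := HH.exists_quotient_rep hs h0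
  obtain ⟨M2, _, _, _, π2, L2, hsurj2, hadd2, hinj2, hconj2⟩ :=
    HH.exists_quotient_rep hsH1 (pPrimeCore_quotient_pPrimeCore 2 (G ⧸ pCore 2 G))
  have hexpH : HH.ExpLE 2 (n + 2) (G ⧸ pCore 2 G) := hexp.quotient _
  have hexp1 : HH.ExpLE 2 (n + 2) ((G ⧸ pCore 2 G) ⧸ pPrimeCore 2 (G ⧸ pCore 2 G)) := hexpH.quotient _
  have hexp2 : HH.ExpLE 2 (n + 2) (((G ⧸ pCore 2 G) ⧸ pPrimeCore 2 (G ⧸ pCore 2 G)) ⧸
      pCore 2 ((G ⧸ pCore 2 G) ⧸ pPrimeCore 2 (G ⧸ pCore 2 G))) := hexp1.quotient _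
  obtain ⟨d, ρ, hρ, hρk⟩ := exists_closed_rep L hinj
  obtain ⟨d2, ρ2, hρ2, hρ2k⟩ := exists_closed_rep L2 hinj2
  haveI : CharP (AlgebraicClosure (ZMod 2)) 2 :=
    charP_of_injective_algebraMap (algebraMap (ZMod 2) _).injective 2
  have hdeg : Deg ρ n := fun u hu => by
    refine ⟨hexpH u hu, hρk u _ ?_⟩
    obtain ⟨g0, hg0, rfl⟩ := HH.exists_lift_p_element _ u hu
    exact HH.sub_one_pow_eq_zero (isPGroup_pCore 2 G) π (L.comp (QuotientGroup.mk' _)) hsurj hadd hconj hexp g0 hg0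
  have hdeg2 : Deg ρ2 n := fun u hu => by
    refine ⟨hexp2 u hu, hρ2k u _ ?_⟩
    obtain ⟨g0, hg0, rfl⟩ := HH.exists_lift_p_element _ u hu
    exact HH.sub_one_pow_eq_zero (isPGroup_pCore 2 _) π2 (L2.comp (QuotientGroup.mk' _)) hsurj2 hadd2 hconj2 hexp1
      g0 hg0
  intro x hx
  obtain ⟨k, hk, hord⟩ := (Nat.dvd_prime_pow Nat.prime_two).mp (orderOf_dvd_of_pow_eq_one (hexp2 x hx))
  rcases Nat.lt_or_ge k (n + 2) with hlt | hge
  · exact orderOf_dvd_iff_pow_eq_one.mp (hord ▸ pow_dvd_pow 2 (by omega))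
  exfalso
  obtain rfl : k = n + 2 := by omega
  obtain ⟨q, hq, hq2, S, hS, hxS, e, he, hey, hne⟩ := exists_pair (pCore_quotient_pCore 2 _) hρ2 hdeg2 x hord
  haveI := Fact.mk hq
  set mk := (QuotientGroup.mk' (pCore 2 ((G ⧸ pCore 2 G) ⧸ pPrimeCore 2 (G ⧸ pCore 2 G)))).comp
    (QuotientGroup.mk' (pPrimeCore 2 (G ⧸ pCore 2 G))) with hmkdef
  have hmk : Function.Surjective mk :=
    (QuotientGroup.mk'_surjective _).comp (QuotientGroup.mk'_surjective _)
  obtain ⟨g, hg, hgx, e', he', hey', hR⟩ := exists_lift mk hmk hq2 (fun u hu => (hdeg u hu).1) hS hord hxS he hey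
  have hmem := commutator_mem (pCore_quotient_pCore 2 G) hρ hdeg g hg hq2 e' _ hR hey' rfl
  refine hne ?_
  have h1 : mk ⁅e', g ^ 2 ^ n * e' * (g ^ 2 ^ n)⁻¹⁆ = 1 := by
    rw [hmkdef, MonoidHom.comp_apply]
    exact ((congrArg _ ((QuotientGroup.eq_one_iff _).mpr hmem)).trans (map_one _))
  rwa [map_commutatorElement, map_mul, map_mul, map_inv, map_pow, hgx, he'] at h1

/-- Exponent two: the 2-length is at most one. -/
theorem pLengthLE_one_of_expLE_one {G : Type u} [Group G] [Finite G] [Group.IsSolvable G] [Fact (Nat.Prime 2)]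
    (h0 : pPrimeCore 2 G = ⊥) (hexp : HH.ExpLE 2 1 G) : PLengthLE 2 1 G := by
  obtain ⟨S⟩ : Nonempty (Sylow 2 G) := inferInstance
  have hsq : ∀ a ∈ (S : Subgroup G), a * a = 1 := fun a ha => by
    obtain ⟨k, hk⟩ := S.isPGroup' ⟨a, ha⟩
    have h := hexp a ⟨k, congrArg Subtype.val hk⟩
    rwa [pow_one, pow_two] at h
  have hle : (S : Subgroup G) ≤ pCore 2 G := fun a ha =>
    centralizer_pCore_le_of_isSolvable h0 (Subgroup.mem_centralizer_iff.mpr fun b hb => by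
      have hb' := pCore_le_sylow S hb
      have h1 : b⁻¹ = b := inv_eq_of_mul_eq_one_right (hsq b hb')
      have h2 : a⁻¹ = a := inv_eq_of_mul_eq_one_right (hsq a ha)
      have h3 : (b * a)⁻¹ = b * a := inv_eq_of_mul_eq_one_right (hsq _ (mul_mem hb' ha))
      rw [← h3, mul_inv_rev, h1, h2])
  rw [pLengthLE_one_iff, pPrimePCore_eq_pCore h0, Nat.coprime_comm, Nat.prime_two.coprime_iff_not_dvd]
  exact fun hd => S.not_dvd_index (hd.trans (Subgroup.index_dvd_of_le hle))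

/-- Gross's bound. -/
theorem pLengthLE_gross : ∀ (e : ℕ) {G : Type u} [Group G] [Finite G] [Group.IsSolvable G],
    HH.ExpLE 2 (e + 1) G → PLengthLE 2 (2 * e + 1) G := by
  haveI : Fact (Nat.Prime 2) := ⟨Nat.prime_two⟩
  intro e
  induction e with
  | zero =>
    intro G _ _ _ hexp
    rw [← pLengthLE_quotient_pPrimeCore_iff]
    exact pLengthLE_one_of_expLE_one (pPrimeCore_quotient_pPrimeCore 2 G) (hexp.quotient _)
  | succ e ih =>
    intro G _ _ _ hexp
    rw [show 2 * (e + 1) + 1 = ((2 * e + 1) + 1) + 1 by ring, ← pLengthLE_quotient_pPrimeCore_iff,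
      pLengthLE_succ_iff]
    have h0 := pPrimeCore_quotient_pPrimeCore 2 G
    refine HH.pLengthLE_congr _ _ (pPrimePCore_eq_pCore h0).symm ?_
    rw [← pLengthLE_quotient_pPrimeCore_iff, pLengthLE_succ_iff]
    refine HH.pLengthLE_congr _ _ (pPrimePCore_eq_pCore (pPrimeCore_quotient_pPrimeCore 2 _)).symm ?_
    exact ih (exponent_drop h0 (hexp.quotient _))

end Cfsg.Agent.KnownA.GrossLength
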